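import Mathlib
import Cfsg.Agent.H31.Defect.BlockData

/-!
Integrality of the average over the cosets of the normaliser of a subgroup of prime order: for an
integral matrix commuting with the normaliser, the scalar obtained by averaging is close to every
eigenvalue, the closer the fewer eigenvalues the element of prime order has.
-/

set_option autoImplicit false
set_option linter.unusedSectionVars false

namespace Cfsg.Agent.H39.SmallDeg

open Polynomial Matrix IsLocalRing
open Cfsg.Agent.H31.Defect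

variable {p : ℕ} [hp : Fact p.Prime]

/-- The `p`-th root of unity attached to an exponent. -/
noncomputable def rt (j : ZMod p) : ℂ := ZMod.stdAddChar j

theorem rt_zero : rt (0 : ZMod p) = 1 := AddChar.map_zero_eq_one _

theorem rt_add (a b : ZMod p) : rt (a + b) = rt a * rt b := AddChar.map_add_eq_mul _ _ _

theorem rt_natCast_mul (n : ℕ) (j : ZMod p) : rt ((n : ZMod p) * j) = rt j ^ n := by
  rw [rt, rt, ← AddChar.map_nsmul_eq_pow, nsmul_eq_mul]

theorem rt_pow_p (j : ZMod p) : rt j ^ p = 1 := by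
  rw [← rt_natCast_mul, ZMod.natCast_self, zero_mul, rt_zero]

theorem rt_ne_zero (j : ZMod p) : rt j ≠ 0 := fun h => by
  have := rt_pow_p (p := p) j
  rw [h, zero_pow hp.out.ne_zero] at this
  exact zero_ne_one this

theorem rt_injective : Function.Injective (rt (p := p)) := ZMod.injective_stdAddChar

section Val

variable {O : ValuationSubring ℂ}

theorem val_rt (j : ZMod p) : O.valuation (rt j) = 1 :=
  val_root_of_unity hp.out.ne_zero (rt_pow_p j)

theorem val_rt_sub_one {j : ZMod p} (hj : j ≠ 0) :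
    O.valuation (rt j - 1) = O.valuation (rt (1 : ZMod p) - 1) := by
  have key : ∀ a b : ZMod p, O.valuation (rt (a * b) - 1) ≤ O.valuation (rt b - 1) := by
    intro a b
    rw [← ZMod.natCast_zmod_val a, rt_natCast_mul, ← geom_sum_mul, map_mul]
    refine mul_le_of_le_one_left zero_le (Valuation.map_sum_le _ fun i _ => ?_)
    rw [map_pow, val_rt, one_pow]
  refine le_antisymm ?_ ?_
  · simpa using key j 1
  · simpa [inv_mul_cancel₀ hj] using key j⁻¹ j

theorem val_rt_sub {j k : ZMod p} (h : j ≠ k) :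
    O.valuation (rt j - rt k) = O.valuation (rt (1 : ZMod p) - 1) := by
  rw [← val_rt_sub_one (O := O) (sub_ne_zero.2 h)]
  have : rt j - rt k = rt k * (rt (j - k) - 1) := by
    rw [mul_sub, mul_one, ← rt_add, add_sub_cancel]
  rw [this, map_mul, val_rt, one_mul]

theorem val_prime : O.valuation (p : ℂ) = O.valuation (rt (1 : ZMod p) - 1) ^ (p - 1) := by
  obtain ⟨q, hq⟩ : ∃ q, p = q + 1 := ⟨p - 1, (Nat.sub_add_cancel hp.out.one_le).symm⟩
  have hμ : IsPrimitiveRoot (rt (1 : ZMod p)) (q + 1) := hq ▸ std_isPrimitiveRoot one_ne_zero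
  have h := IsPrimitiveRoot.prod_one_sub_pow_eq_order hμ
  have hcast : (p : ℂ) = (q : ℂ) + 1 := by rw [hq]; push_cast; ring
  rw [hcast, ← h, map_prod, Finset.prod_eq_pow_card (b := O.valuation (rt (1 : ZMod p) - 1)),
    Finset.card_range, show p - 1 = q by omega]
  intro k hk
  rw [Finset.mem_range] at hk
  rw [← rt_natCast_mul, mul_one, Valuation.map_sub_swap, val_rt_sub_one]
  intro h0
  rw [CharP.cast_eq_zero_iff (ZMod p) p] at h0
  have := Nat.le_of_dvd (by omega) h0
  omega

theorem val_pi_ne_zero : O.valuation (rt (1 : ZMod p) - 1) ≠ 0 := by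
  rw [Valuation.ne_zero_iff, sub_ne_zero, ← rt_zero (p := p)]
  exact fun h => one_ne_zero (rt_injective h)

theorem val_pi_lt_one (hO : (p : O) ∈ maximalIdeal O) :
    O.valuation (rt (1 : ZMod p) - 1) < 1 := by
  by_contra h
  have h1 := val_prime_lt_one (p := p) hO
  rw [val_prime] at h1
  exact absurd (one_le_pow₀ (not_lt.1 h)) (not_le.2 h1)

theorem le_of_pi_pow_le (hO : (p : O) ∈ maximalIdeal O) {a b : ℕ}
    (h : O.valuation (rt (1 : ZMod p) - 1) ^ a ≤ O.valuation (rt (1 : ZMod p) - 1) ^ b) : b ≤ a := by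
  by_contra hlt
  refine absurd h (not_le.2 ?_)
  exact pow_lt_pow_right_of_lt_one₀ (zero_lt_iff.2 val_pi_ne_zero) (val_pi_lt_one hO)
    (not_le.1 hlt)

end Val

section Int

variable {d : ℕ} {O : ValuationSubring ℂ}

/-- All entries lie in the valuation ring. -/
def IntMat (O : ValuationSubring ℂ) (M : Matrix (Fin d) (Fin d) ℂ) : Prop :=
  ∀ i j, O.valuation (M i j) ≤ 1

theorem IntMat.one : IntMat O (1 : Matrix (Fin d) (Fin d) ℂ) := fun i j => by
  rw [Matrix.one_apply]; split <;> simp

theorem IntMat.mul {M N : Matrix (Fin d) (Fin d) ℂ} (hM : IntMat O M) (hN : IntMat O N) :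
    IntMat O (M * N) := fun i j => by
  rw [Matrix.mul_apply]
  refine Valuation.map_sum_le _ fun k _ => ?_
  rw [map_mul]
  exact mul_le_one' (hM i k) (hN k j)

theorem IntMat.smul {c : ℂ} (hc : O.valuation c ≤ 1) {M : Matrix (Fin d) (Fin d) ℂ}
    (hM : IntMat O M) : IntMat O (c • M) := fun i j => by
  rw [Matrix.smul_apply, smul_eq_mul, map_mul]
  exact mul_le_one' hc (hM i j)

theorem IntMat.sub {M N : Matrix (Fin d) (Fin d) ℂ} (hM : IntMat O M) (hN : IntMat O N) :
    IntMat O (M - N) := fun i j => by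
  rw [Matrix.sub_apply]
  exact O.valuation.map_sub_le (hM i j) (hN i j)

theorem IntMat.sum {ι : Type*} (s : Finset ι) {f : ι → Matrix (Fin d) (Fin d) ℂ}
    (h : ∀ x ∈ s, IntMat O (f x)) : IntMat O (∑ x ∈ s, f x) := fun i j => by
  rw [Matrix.sum_apply]
  exact Valuation.map_sum_le _ fun x hx => h x hx i j

theorem IntMat.pow {M : Matrix (Fin d) (Fin d) ℂ} (hM : IntMat O M) :
    ∀ n : ℕ, IntMat O (M ^ n)
  | 0 => by simpa using IntMat.one
  | n + 1 => by rw [pow_succ]; exact (IntMat.pow hM n).mul hM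

theorem val_mulVec_le {M : Matrix (Fin d) (Fin d) ℂ} (hM : IntMat O M) (v : Fin d → ℂ)
    {b} (hb : ∀ i, O.valuation (v i) ≤ b) (i : Fin d) : O.valuation ((M *ᵥ v) i) ≤ b := by
  rw [Matrix.mulVec, dotProduct]
  refine Valuation.map_sum_le _ fun k _ => ?_
  rw [map_mul]
  exact mul_le_of_le_one_of_le (hM i k) (hb k)

/-- The product of `Z - rt k` over a set of exponents. -/
noncomputable def qPoly (T : Finset (ZMod p)) : Polynomial ℂ :=
  ∏ k ∈ T, (Polynomial.X - Polynomial.C (rt k))

theorem intMat_qPoly {Z : Matrix (Fin d) (Fin d) ℂ} (hZ : IntMat O Z) (T : Finset (ZMod p)) :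
    IntMat O (Polynomial.aeval Z (qPoly T)) := by
  classical
  induction T using Finset.induction_on with
  | empty => simpa [qPoly] using IntMat.one
  | insert a s ha ih =>
    rw [qPoly, Finset.prod_insert ha, map_mul, map_sub, Polynomial.aeval_X, Polynomial.aeval_C,
      Algebra.algebraMap_eq_smul_one]
    exact (hZ.sub (IntMat.one.smul (val_rt a).le)).mul ih

theorem val_qPoly_eval {T : Finset (ZMod p)} {j : ZMod p} (h : j ∉ T) :
    O.valuation ((qPoly T).eval (rt j)) = O.valuation (rt (1 : ZMod p) - 1) ^ T.card := by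
  rw [qPoly, Polynomial.eval_prod, map_prod,
    Finset.prod_eq_pow_card (b := O.valuation (rt (1 : ZMod p) - 1))]
  intro k hk
  rw [Polynomial.eval_sub, Polynomial.eval_X, Polynomial.eval_C]
  exact val_rt_sub fun e => h (e ▸ hk)

end Int

section Orbits

variable {R : Type*} [Ring R] {α : Type*}

/-- A sum over regular orbits of a cyclic group of order `p` is a trace from the trivial group. -/
theorem exists_sum_free_orbits {G : Type*} [Group G] [MulAction G α] {z : G} (hz : orderOf z = p)
    {Z : R} (hZ : Z ^ p = 1) (P : R → Prop) (hP0 : P 0) (hPadd : ∀ a b, P a → P b → P (a + b))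
    (A : α → R) (hPA : ∀ q, P (A q)) (hA : ∀ q, A (z • q) * Z = Z * A q) :
    ∀ (m : ℕ) (S : Finset α), S.card ≤ m → (∀ q ∈ S, z • q ∈ S) →
      (∀ q ∈ S, ∀ j : ℕ, ¬ p ∣ j → z ^ j • q ≠ q) →
      ∃ h, P h ∧ ∑ q ∈ S, A q = ∑ i ∈ Finset.range p, Z ^ i * h * (Z ^ (p - 1)) ^ i := by
  classical
  intro m
  induction m with
  | zero =>
    intro S hS _ _
    exact ⟨0, hP0, by simp [Finset.card_eq_zero.1 (Nat.le_zero.1 hS)]⟩
  | succ m ih =>
    intro S hS hst hfree
    rcases S.eq_empty_or_nonempty with rfl | ⟨q₀, hq₀⟩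
    · exact ⟨0, hP0, by simp⟩
    have hpow : ∀ j : ℕ, z ^ j • q₀ ∈ S := fun j => by
      induction j with
      | zero => simpa using hq₀
      | succ j ihj => rw [pow_succ', mul_smul]; exact hst _ ihj
    set T := (Finset.range p).image fun j => z ^ j • q₀ with hT
    have hzp : z ^ p = 1 := hz ▸ pow_orderOf_eq_one z
    have hinj : Set.InjOn (fun j => z ^ j • q₀) (Finset.range p) := by
      intro a ha b hb hab
      simp only [Finset.coe_range, Set.mem_Iio] at ha hb
      dsimp only at hab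
      rcases le_total a b with hle | hle
      · by_contra hne
        refine hfree _ (hpow a) (b - a) ?_ ?_
        · intro hd; have := Nat.le_of_dvd (by omega) hd; omega
        · rw [← mul_smul, ← pow_add, Nat.sub_add_cancel hle]; exact hab.symm
      · by_contra hne
        refine hfree _ (hpow b) (a - b) ?_ ?_
        · intro hd; have := Nat.le_of_dvd (by omega) hd; omega
        · rw [← mul_smul, ← pow_add, Nat.sub_add_cancel hle]; exact hab
    have hTS : T ⊆ S := fun x hx => by
      obtain ⟨j, -, rfl⟩ := Finset.mem_image.1 hx; exact hpow j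
    have hTst : ∀ x, z • x ∈ T → x ∈ T := by
      intro x hx
      obtain ⟨j, -, e⟩ := Finset.mem_image.1 hx
      refine Finset.mem_image.2
        ⟨(j + (p - 1)) % p, Finset.mem_range.2 (Nat.mod_lt _ hp.out.pos), ?_⟩
      rw [← hz, pow_mod_orderOf, hz, add_comm, pow_add, mul_smul, e, ← mul_smul, ← pow_succ,
        Nat.sub_add_cancel hp.out.one_le, hzp, one_smul]
    obtain ⟨h, hh, e⟩ := ih (S \ T) (by
      have h0 : 0 < T.card := Finset.card_pos.2
        ⟨_, Finset.mem_image_of_mem _ (Finset.mem_range.2 hp.out.pos)⟩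
      rw [Finset.card_sdiff_of_subset hTS]
      omega) (fun q hq => by
        rw [Finset.mem_sdiff] at hq ⊢
        exact ⟨hst q hq.1, fun h => hq.2 (hTst q h)⟩)
      (fun q hq => hfree q (Finset.mem_sdiff.1 hq).1)
    refine ⟨h + A q₀, hPadd _ _ hh (hPA _), ?_⟩
    have hterm : ∀ j, A (z ^ j • q₀) = Z ^ j * A q₀ * (Z ^ (p - 1)) ^ j := by
      intro j
      induction j with
      | zero => simp
      | succ j ihj =>
        have h := hA (z ^ j • q₀)
        rw [← mul_smul, ← pow_succ'] at h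
        calc A (z ^ (j + 1) • q₀) = A (z ^ (j + 1) • q₀) * (Z * Z ^ (p - 1)) := by
              rw [← pow_succ', Nat.sub_add_cancel hp.out.one_le, hZ, mul_one]
          _ = Z * A (z ^ j • q₀) * Z ^ (p - 1) := by rw [← mul_assoc, h]
          _ = _ := by rw [ihj, pow_succ' Z, pow_succ (Z ^ (p - 1))]; simp only [mul_assoc]
    rw [← Finset.sum_sdiff hTS, e, hT, Finset.sum_image hinj, ← Finset.sum_add_distrib]
    exact Finset.sum_congr rfl fun i _ => by rw [hterm i, mul_add, add_mul]

end Orbits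

variable {G : Type*} [Group G] [Finite G] {z : G} {d : ℕ} {O : ValuationSubring ℂ}

/-- For an integral matrix commuting with the normaliser there is a scalar close to all its
eigenvalues on common eigenvectors with `z`. -/
theorem exists_scalar_close (hz : orderOf z = p) (hsq : ¬ p ^ 2 ∣ Nat.card G)
    (A : G →* Matrix (Fin d) (Fin d) ℂ) (hint : ∀ g, IntMat O (A g))
    (hschur : ∀ Φ : Matrix (Fin d) (Fin d) ℂ, (∀ g, Commute Φ (A g)) → ∃ c : ℂ, Φ = c • 1)
    {E : Finset (ZMod p)} (hE : Polynomial.aeval (A z) (qPoly E) = 0)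
    {Φ : Matrix (Fin d) (Fin d) ℂ} (hΦint : IntMat O Φ)
    (hΦ : ∀ g ∈ Subgroup.normalizer ((Subgroup.zpowers z : Subgroup G) : Set G),
      Commute Φ (A g)) :
    ∃ c : ℂ, ∀ j ∈ E, ∀ (v : Fin d → ℂ) (φ : ℂ), v ≠ 0 → A z *ᵥ v = rt j • v → Φ *ᵥ v = φ • v →
      O.valuation (c - φ) * O.valuation (rt (1 : ZMod p) - 1) ^ (E.card - 1) ≤
        O.valuation (rt (1 : ZMod p) - 1) ^ (p - 1) := by
  classical
  set N := Subgroup.normalizer ((Subgroup.zpowers z : Subgroup G) : Set G) with hN
  let _ : Fintype (G ⧸ N) := Fintype.ofFinite _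
  let B : G ⧸ N → Matrix (Fin d) (Fin d) ℂ := fun q => A q.out * Φ * A q.out⁻¹
  have hBg : ∀ g : G, B (g : G ⧸ N) = A g * Φ * A g⁻¹ := by
    intro g
    obtain ⟨h, hh⟩ := QuotientGroup.mk_out_eq_mul N g
    show A (g : G ⧸ N).out * Φ * A (g : G ⧸ N).out⁻¹ = _
    rw [hh, map_mul, _root_.mul_inv_rev, map_mul, mul_assoc (A g), ← (hΦ _ h.2).eq,
      mul_assoc (A g), mul_assoc Φ, ← mul_assoc (A (h : G)), ← map_mul, mul_inv_cancel, map_one,
      one_mul, mul_assoc]
  have hequiv : ∀ (x : G) (q : G ⧸ N), B (x • q) * A x = A x * B q := by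
    intro x q
    obtain ⟨g, rfl⟩ := QuotientGroup.mk_surjective q
    rw [MulAction.Quotient.smul_coe, hBg, hBg, smul_eq_mul]
    have e : A (x * g)⁻¹ * A x = A g⁻¹ := by
      rw [← map_mul]
      congr 1
      group
    rw [mul_assoc, e, map_mul]
    simp only [mul_assoc]
  obtain ⟨c, hc⟩ := hschur (∑ q, B q) fun x => by
    show (∑ q, B q) * A x = A x * ∑ q, B q
    rw [Finset.sum_mul, Finset.mul_sum]
    exact (Fintype.sum_equiv (MulAction.toPerm x) _ _ fun q => (hequiv x q).symm).symm
  refine ⟨c, ?_⟩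
  set q₁ : G ⧸ N := ((1 : G) : G ⧸ N) with hq₁
  have hfix : z • q₁ = q₁ := by
    rw [hq₁, MulAction.Quotient.smul_coe, QuotientGroup.eq]
    simpa using Subgroup.le_normalizer (Subgroup.mem_zpowers z)
  set Z := A z with hZdef
  have hZp : Z ^ p = 1 := by rw [hZdef, ← map_pow, ← hz, pow_orderOf_eq_one, map_one]
  obtain ⟨h, hh, hsum⟩ := exists_sum_free_orbits hz hZp (IntMat O)
    (fun i j => by simp) (fun a b ha hb i j => Valuation.map_add_le _ (ha i j) (hb i j)) B
    (fun q => ((hint _).mul hΦint).mul (hint _)) (fun q => hequiv z q) _ (Finset.univ.erase q₁)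
    le_rfl (fun q hq => Finset.mem_erase.2 ⟨fun e => Finset.ne_of_mem_erase hq
      (MulAction.injective z (e.trans hfix.symm)), Finset.mem_univ _⟩) (by
    intro q hq j hj e
    obtain ⟨g, rfl⟩ := QuotientGroup.mk_surjective q
    refine Finset.ne_of_mem_erase hq ?_
    rw [MulAction.Quotient.smul_coe, smul_eq_mul, QuotientGroup.eq, _root_.mul_inv_rev] at e
    have hmem : g⁻¹ * z ^ j * g ∈ N := by
      have := N.inv_mem e
      simpa [mul_assoc] using this
    rw [hq₁, QuotientGroup.eq, mul_one]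
    exact N.inv_mem (mem_normalizer_of_fixed hz hsq hj hmem))
  have hX : c • (1 : Matrix (Fin d) (Fin d) ℂ) - Φ =
      ∑ i ∈ Finset.range p, Z ^ i * h * (Z ^ (p - 1)) ^ i := by
    rw [← hsum, ← hc, ← Finset.add_sum_erase _ _ (Finset.mem_univ q₁), hq₁, hBg]
    simp
  intro j hj v φ hv hzv hΦv
  -- the eigenprojection, up to a scalar
  set cc : ℂ := rt j ^ (p - 1) with hcc
  have hccj : cc * rt j = 1 := by
    rw [hcc, ← pow_succ, Nat.sub_add_cancel hp.out.one_le, rt_pow_p]
  set S : Matrix (Fin d) (Fin d) ℂ := ∑ i ∈ Finset.range p, cc ^ i • Z ^ i with hS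
  set Q := Polynomial.aeval Z (qPoly (E.erase j)) with hQ
  have hZS : Z * S = rt j • S := by
    have h1 := mul_geom_sum (cc • Z) p
    rw [_root_.smul_pow, hZp, hcc, ← pow_mul, mul_comm (p - 1), pow_mul, rt_pow_p, one_pow, one_smul,
      sub_self, ← hcc] at h1
    simp only [_root_.smul_pow] at h1
    rw [← hS, sub_mul, one_mul, sub_eq_zero, smul_mul_assoc] at h1
    calc Z * S = (rt j * cc) • (Z * S) := by rw [mul_comm, hccj, one_smul]
      _ = rt j • S := by rw [mul_smul, h1]
  have hqS : ∀ T : Finset (ZMod p),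
      Polynomial.aeval Z (qPoly T) * S = (qPoly T).eval (rt j) • S := by
    intro T
    induction T using Finset.induction_on with
    | empty => simp [qPoly]
    | insert a s ha ih =>
      simp only [qPoly, Finset.prod_insert ha, map_mul, Polynomial.eval_mul] at ih ⊢
      rw [mul_assoc, ih, mul_smul_comm, map_sub, Polynomial.aeval_X, Polynomial.aeval_C,
        Algebra.algebraMap_eq_smul_one, sub_mul, hZS, smul_mul_assoc, one_mul, ← sub_smul,
        smul_smul, mul_comm, Polynomial.eval_sub, Polynomial.eval_X, Polynomial.eval_C]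
  have hZQ : Z * Q = rt j • Q := by
    have e : (Polynomial.X - Polynomial.C (rt j)) * qPoly (E.erase j) = qPoly E := by
      rw [qPoly, qPoly, Finset.mul_prod_erase E
        (fun k => Polynomial.X - Polynomial.C (rt k)) hj]
    have h0 := hE
    rw [← e, map_mul, map_sub, Polynomial.aeval_X, Polynomial.aeval_C,
      Algebra.algebraMap_eq_smul_one, sub_mul, smul_mul_assoc, one_mul, sub_eq_zero] at h0
    exact h0
  have hZiQ : ∀ i : ℕ, Z ^ i * Q = rt j ^ i • Q := fun i => by
    induction i with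
    | zero => simp
    | succ i ih => rw [pow_succ', mul_assoc, ih, mul_smul_comm, hZQ, smul_smul, ← pow_succ]
  have hSQ : S * Q = (p : ℂ) • Q := by
    rw [hS, Finset.sum_mul, Finset.sum_congr rfl fun i _ => by
      rw [smul_mul_assoc, hZiQ, smul_smul, ← mul_pow, hccj, one_pow, one_smul]]
    rw [Finset.sum_const, Finset.card_range, ← Nat.cast_smul_eq_nsmul ℂ]
  have hcomm : Commute S Q := by
    refine Commute.sum_left _ _ _ fun i _ => ((?_ : Commute Z Q).pow_left i).smul_left _
    rw [hQ]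
    simpa only [Polynomial.aeval_X] using
      (Commute.all (Polynomial.X : Polynomial ℂ) (qPoly (E.erase j))).map (Polynomial.aeval Z)
  set γ := (qPoly (E.erase j)).eval (rt j) with hγ
  have hγS : γ • S = (p : ℂ) • Q := by rw [← hqS, ← hcomm.eq, hSQ]
  -- apply the average to the eigenvector
  have hZ1 : ∀ i : ℕ, (Z ^ (p - 1)) ^ i *ᵥ v = cc ^ i • v := by
    intro i
    rw [← pow_mul, hcc, ← pow_mul]
    induction (p - 1) * i with
    | zero => simp
    | succ m ihm => rw [pow_succ, ← Matrix.mulVec_mulVec, hzv, Matrix.mulVec_smul, ihm, smul_smul,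
        ← pow_succ']
  have key : (γ * (c - φ)) • v = (p : ℂ) • ((Q * h) *ᵥ v) := by
    have h1 : (c - φ) • v = (S * h) *ᵥ v := by
      have := congrArg (fun M : Matrix (Fin d) (Fin d) ℂ => M *ᵥ v) hX
      simp only [Matrix.sub_mulVec, Matrix.smul_mulVec, Matrix.one_mulVec, hΦv,
        Matrix.sum_mulVec] at this
      rw [sub_smul, this, hS, Finset.sum_mul, Matrix.sum_mulVec]
      refine Finset.sum_congr rfl fun i _ => ?_
      rw [← Matrix.mulVec_mulVec, hZ1, Matrix.mulVec_smul, smul_mul_assoc, Matrix.smul_mulVec]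
    rw [mul_smul, h1, ← Matrix.smul_mulVec, ← smul_mul_assoc, hγS, smul_mul_assoc,
      Matrix.smul_mulVec]
  obtain ⟨i₀, -, hmax⟩ := Finset.exists_max_image (Finset.univ : Finset (Fin d))
    (fun i => O.valuation (v i)) ⟨_, Finset.mem_univ (Function.ne_iff.1 hv).choose⟩
  have hvi : O.valuation (v i₀) ≠ 0 := by
    obtain ⟨i, hi⟩ := Function.ne_iff.1 hv
    intro h0
    have := hmax i (Finset.mem_univ _)
    rw [h0, le_zero_iff, map_eq_zero] at this
    exact hi this
  have hb := val_mulVec_le ((intMat_qPoly (hint z) (E.erase j)).mul hh) v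
    (fun i => hmax i (Finset.mem_univ _)) i₀
  have h2 := congrArg O.valuation (congrFun key i₀)
  rw [Pi.smul_apply, Pi.smul_apply, smul_eq_mul, smul_eq_mul, map_mul, map_mul, map_mul, hγ,
    val_qPoly_eval (Finset.notMem_erase _ _), Finset.card_erase_of_mem hj, val_prime] at h2
  refine le_of_mul_le_mul_right ?_ (zero_lt_iff.2 hvi)
  rw [mul_comm (O.valuation (c - φ)), h2]
  exact mul_le_mul_right hb _

end Cfsg.Agent.H39.SmallDeg
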