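import Mathlib
import Cfsg.Agent.H39.SmallDeg.Integral

/-!
The eigenprojections of an element of order `p` in an irreducible integral representation, and
their behaviour under the normaliser.
-/

set_option autoImplicit false
set_option linter.unusedSectionVars false

namespace Cfsg.Agent.H39.SmallDeg

open Polynomial Matrix IsLocalRing
open Cfsg.Agent.H31.Defect

variable {p : ℕ} [hp : Fact p.Prime] {G : Type*} [Group G] [Finite G] {z : G} {d : ℕ}

/-- An integral matrix form of an irreducible character, with scalar centraliser. -/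
structure Lat (p : ℕ) [Fact p.Prime] (χ : G → ℂ) (O : ValuationSubring ℂ)
    (A : G →* Matrix (Fin d) (Fin d) ℂ) : Prop where
  mem : (p : O) ∈ maximalIdeal O
  tr : ∀ g, (A g).trace = χ g
  int : ∀ g, IntMat O (A g)
  schur : ∀ Φ : Matrix (Fin d) (Fin d) ℂ, (∀ g, Commute Φ (A g)) → ∃ c : ℂ, Φ = c • 1

theorem exists_lat (χ : Cfsg.IrrCharacter G) :
    ∃ (d : ℕ) (O : ValuationSubring ℂ) (A : G →* Matrix (Fin d) (Fin d) ℂ), Lat p χ.1 O A := by
  classical
  let _ : Fintype G := Fintype.ofFinite G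
  obtain ⟨O, hO⟩ := Cfsg.Agent.H44.exists_valuationSubring_natCast_mem p
  obtain ⟨d, R, htr, -⟩ := exists_complex_lattice O χ
  refine ⟨d, O, (toK O (Fin d)).toMonoidHom.comp R, hO, htr, fun g i j => ?_, fun Φ hΦ => ?_⟩
  · exact (O.valuation_le_one_iff _).2 (R g i j).2
  · exact schur_of_char χ _ htr hΦ

variable (z) in
/-- The eigenprojection of `z` for the eigenvalue attached to `j`. -/
noncomputable def eProj (A : G →* Matrix (Fin d) (Fin d) ℂ) (j : ZMod p) :
    Matrix (Fin d) (Fin d) ℂ :=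
  (p : ℂ)⁻¹ • ∑ i : ZMod p, rt (-(i * j)) • A (z ^ i.val)

theorem sum_rt (a : ZMod p) : ∑ i : ZMod p, rt (i * a) = if a = 0 then (p : ℂ) else 0 := by
  have h := AddChar.sum_mulShift a (ZMod.isPrimitive_stdAddChar p)
  rw [ZMod.card] at h
  exact h.trans (by split <;> simp)

theorem p_ne_zero : (p : ℂ) ≠ 0 := Nat.cast_ne_zero.2 hp.out.ne_zero

variable {A : G →* Matrix (Fin d) (Fin d) ℂ}

theorem zpow_mul_eProj (hz : orderOf z = p) (k j : ZMod p) :
    A (z ^ k.val) * eProj z A j = rt (k * j) • eProj z A j := by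
  rw [eProj, mul_smul_comm, smul_comm (rt (k * j)) ((p : ℂ)⁻¹)]
  refine congrArg (fun M : Matrix (Fin d) (Fin d) ℂ => (p : ℂ)⁻¹ • M) ?_
  rw [Finset.mul_sum, Finset.smul_sum]
  refine Fintype.sum_equiv (Equiv.addLeft k) _ _ (fun (i : ZMod p) => ?_)
  rw [mul_smul_comm, ← map_mul, ← pow_val_add hz, Equiv.coe_addLeft, smul_smul, ← rt_add]
  congr 2
  ring

theorem eProj_comm_z (hz : orderOf z = p) (k j : ZMod p) :
    Commute (A (z ^ k.val)) (eProj z A j) := by
  refine Commute.smul_right (Commute.sum_right _ _ _ fun i _ => ?_) _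
  refine Commute.smul_right ?_ _
  show A _ * A _ = A _ * A _
  rw [← map_mul, ← map_mul, ← pow_val_add hz, ← pow_val_add hz, add_comm]

theorem z_mul_eProj (hz : orderOf z = p) (j : ZMod p) :
    A z * eProj z A j = rt j • eProj z A j := by
  have h := zpow_mul_eProj (A := A) hz 1 j
  rwa [ZMod.val_one, pow_one, one_mul] at h

theorem eProj_mul (hz : orderOf z = p) (j k : ZMod p) :
    eProj z A j * eProj z A k = if j = k then eProj z A k else 0 := by
  nth_rewrite 1 [eProj]
  rw [smul_mul_assoc, Finset.sum_mul]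
  have : ∀ i : ZMod p, rt (-(i * j)) • A (z ^ i.val) * eProj z A k =
      rt (i * (k - j)) • eProj z A k := fun i => by
    rw [smul_mul_assoc, zpow_mul_eProj hz, smul_smul, ← rt_add]
    congr 2
    ring
  rw [Finset.sum_congr rfl fun i _ => this i, ← Finset.sum_smul, sum_rt]
  by_cases h : j = k
  · subst h
    rw [sub_self, if_pos rfl, if_pos rfl, smul_smul, inv_mul_cancel₀ p_ne_zero, one_smul]
  · rw [if_neg h, if_neg (sub_ne_zero.2 (Ne.symm h)), zero_smul, smul_zero]

theorem eProj_idem (hz : orderOf z = p) (j : ZMod p) :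
    eProj z A j * eProj z A j = eProj z A j := by rw [eProj_mul hz, if_pos rfl]

theorem sum_eProj : ∑ j : ZMod p, eProj z A j = 1 := by
  simp only [eProj]
  rw [← Finset.smul_sum, Finset.sum_comm]
  simp only [← Finset.sum_smul]
  have : ∀ i : ZMod p, (∑ j : ZMod p, rt (-(i * j))) = if i = 0 then (p : ℂ) else 0 := fun i => by
    have h := sum_rt (p := p) (-i)
    simp only [neg_eq_zero] at h
    rw [← h]
    exact Finset.sum_congr rfl fun j _ => by congr 1; ring
  simp only [this, ite_smul, zero_smul, Finset.sum_ite_eq', Finset.mem_univ, if_true]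
  rw [smul_smul, inv_mul_cancel₀ p_ne_zero, one_smul, ZMod.val_zero, pow_zero, map_one]

variable (z) in
/-- The exponents that occur as eigenvalues. -/
noncomputable def eSupp (A : G →* Matrix (Fin d) (Fin d) ℂ) : Finset (ZMod p) := by
  classical
  exact Finset.univ.filter fun j => eProj z A j ≠ 0

theorem mem_eSupp {j : ZMod p} : j ∈ eSupp z A ↔ eProj z A j ≠ 0 := by
  classical
  simp [eSupp]

theorem aeval_mul_eProj (hz : orderOf z = p) (T : Finset (ZMod p)) (j : ZMod p) :
    Polynomial.aeval (A z) (qPoly T) * eProj z A j = (qPoly T).eval (rt j) • eProj z A j := by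
  classical
  induction T using Finset.induction_on with
  | empty => simp [qPoly]
  | insert a s ha ih =>
    simp only [qPoly, Finset.prod_insert ha, map_mul, Polynomial.eval_mul] at ih ⊢
    rw [mul_assoc, ih, mul_smul_comm, map_sub, Polynomial.aeval_X, Polynomial.aeval_C,
      Algebra.algebraMap_eq_smul_one, sub_mul, z_mul_eProj hz, smul_mul_assoc, one_mul,
      ← sub_smul, smul_smul, mul_comm, Polynomial.eval_sub, Polynomial.eval_X, Polynomial.eval_C]

theorem aeval_eq_sum (hz : orderOf z = p) (T : Finset (ZMod p)) :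
    Polynomial.aeval (A z) (qPoly T) = ∑ j : ZMod p, (qPoly T).eval (rt j) • eProj z A j := by
  conv_lhs => rw [← mul_one (Polynomial.aeval (A z) (qPoly T)), ← sum_eProj (p := p) (z := z) (A := A)]
  rw [Finset.mul_sum]
  exact Finset.sum_congr rfl fun j _ => aeval_mul_eProj hz T j

theorem qPoly_eval_eq_zero {T : Finset (ZMod p)} {j : ZMod p} (h : j ∈ T) :
    (qPoly T).eval (rt j) = 0 := by
  rw [qPoly, Polynomial.eval_prod]
  exact Finset.prod_eq_zero h (by simp)

theorem aeval_eSupp (hz : orderOf z = p) :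
    Polynomial.aeval (A z) (qPoly (eSupp z A : Finset (ZMod p))) = 0 := by
  rw [aeval_eq_sum hz]
  refine Finset.sum_eq_zero fun j _ => ?_
  by_cases h : j ∈ (eSupp z A : Finset (ZMod p))
  · rw [qPoly_eval_eq_zero h, zero_smul]
  · rw [not_ne_iff.1 (fun e => h (mem_eSupp.2 e)), smul_zero]

theorem aeval_erase (hz : orderOf z = p) (j : ZMod p) :
    Polynomial.aeval (A z) (qPoly ((eSupp z A : Finset (ZMod p)).erase j)) =
      (qPoly ((eSupp z A : Finset (ZMod p)).erase j)).eval (rt j) • eProj z A j := by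
  rw [aeval_eq_sum hz]
  refine Finset.sum_eq_single j (fun k _ hk => ?_) (fun h => absurd (Finset.mem_univ j) h)
  by_cases h : k ∈ (eSupp z A : Finset (ZMod p))
  · rw [qPoly_eval_eq_zero (Finset.mem_erase.2 ⟨hk, h⟩), zero_smul]
  · rw [not_ne_iff.1 (fun e => h (mem_eSupp.2 e)), smul_zero]

variable (z) in
/-- The multiplicity of an eigenvalue. -/
noncomputable def mult (A : G →* Matrix (Fin d) (Fin d) ℂ) (j : ZMod p) : ℕ := (eProj z A j).rank

theorem mult_cast (hz : orderOf z = p) (j : ZMod p) :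
    (mult z A j : ℂ) = (eProj z A j).trace := (trace_idem (eProj_idem hz j)).symm

theorem mult_eq (hz : orderOf z = p) {χ : G → ℂ} (htr : ∀ g, (A g).trace = χ g) (j : ZMod p) :
    (mult z A j : ℂ) = (p : ℂ)⁻¹ * ∑ i : ZMod p, rt (-(i * j)) * χ (z ^ i.val) := by
  rw [mult_cast hz, eProj, Matrix.trace_smul, Matrix.trace_sum, smul_eq_mul]
  congr 1
  exact Finset.sum_congr rfl fun i _ => by rw [Matrix.trace_smul, htr, smul_eq_mul]

theorem mult_eq_zero_iff (hz : orderOf z = p) {j : ZMod p} :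
    mult z A j = 0 ↔ eProj z A j = 0 := by
  refine ⟨fun h => ?_, fun h => by rw [mult, h, Matrix.rank_zero]⟩
  have hr : Module.finrank ℂ (LinearMap.range (eProj z A j).mulVecLin) = 0 := h
  rw [Submodule.finrank_eq_zero, LinearMap.range_eq_bot] at hr
  exact Matrix.toLin'.injective (by rw [map_zero, Matrix.toLin'_apply']; exact hr)

theorem mult_pos_iff (hz : orderOf z = p) {j : ZMod p} :
    0 < mult z A j ↔ j ∈ (eSupp z A : Finset (ZMod p)) := by
  rw [mem_eSupp, Nat.pos_iff_ne_zero, Ne, mult_eq_zero_iff hz]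

theorem sum_mult (hz : orderOf z = p) : ∑ j : ZMod p, mult z A j = d := by
  have h : ((∑ j : ZMod p, mult z A j : ℕ) : ℂ) = (d : ℂ) := by
    push_cast
    simp only [mult_cast hz]
    rw [← Matrix.trace_sum, sum_eProj, Matrix.trace_one, Fintype.card_fin]
  exact_mod_cast h

theorem card_eSupp_le (hz : orderOf z = p) : (eSupp z A : Finset (ZMod p)).card ≤ d := by
  calc (eSupp z A : Finset (ZMod p)).card
        = ∑ j ∈ (eSupp z A : Finset (ZMod p)), 1 := Finset.card_eq_sum_ones _
    _ ≤ ∑ j ∈ (eSupp z A : Finset (ZMod p)), mult z A j :=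
        Finset.sum_le_sum fun j hj => (mult_pos_iff hz).2 hj
    _ ≤ ∑ j, mult z A j := Finset.sum_le_sum_of_subset (Finset.subset_univ _)
    _ = d := sum_mult hz

/-- A non-zero matrix moves some vector. -/
theorem exists_mulVec_ne {M : Matrix (Fin d) (Fin d) ℂ} (h : M ≠ 0) :
    ∃ u, M *ᵥ u ≠ 0 := by
  by_contra hc
  push Not at hc
  exact h (Matrix.toLin'.injective (LinearMap.ext fun u => by simp [hc u]))

theorem exists_eigvec (hz : orderOf z = p) {j : ZMod p} (M : Matrix (Fin d) (Fin d) ℂ)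
    (h : eProj z A j * M ≠ 0) :
    ∃ u, (eProj z A j * M) *ᵥ u ≠ 0 ∧
      A z *ᵥ ((eProj z A j * M) *ᵥ u) = rt j • ((eProj z A j * M) *ᵥ u) := by
  obtain ⟨u, hu⟩ := exists_mulVec_ne h
  refine ⟨u, hu, ?_⟩
  rw [Matrix.mulVec_mulVec, ← Matrix.mul_assoc, z_mul_eProj hz, smul_mul_assoc, Matrix.smul_mulVec]

section Normalizer

/-- Conjugation by an element acting on `z` by the exponent `a`. -/
theorem conj_eProj (hz : orderOf z = p) {g : G} {a : ZMod p} (ha : a ≠ 0)
    (hg : g * z * g⁻¹ = z ^ a.val) (j : ZMod p) :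
    A g * eProj z A j = eProj z A (a⁻¹ * j) * A g := by
  rw [eProj, eProj, mul_smul_comm, smul_mul_assoc, Finset.mul_sum, Finset.sum_mul]
  congr 1
  refine Fintype.sum_equiv (Equiv.mulLeft₀ a ha) _ _ fun i => ?_
  rw [mul_smul_comm, smul_mul_assoc, Equiv.mulLeft₀_apply, ← map_mul, ← map_mul]
  congr 2
  · field_simp
  · rw [← pow_val_mul hz, ← hg, conj_pow, inv_mul_cancel_right]

theorem mult_conj (hz : orderOf z = p) {g : G} {a : ZMod p} (ha : a ≠ 0)
    (hg : g * z * g⁻¹ = z ^ a.val) (j : ZMod p) : mult z A (a * j) = mult z A j := by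
  have h := conj_eProj (A := A) hz ha hg (a * j)
  rw [inv_mul_cancel_left₀ ha] at h
  have e : (eProj z A j).trace = (eProj z A (a * j)).trace := by
    calc (eProj z A j).trace = (eProj z A j * (A g * A g⁻¹)).trace := by
          rw [← map_mul, mul_inv_cancel, map_one, mul_one]
      _ = (A g * eProj z A (a * j) * A g⁻¹).trace := by rw [← Matrix.mul_assoc, h]
      _ = (A g⁻¹ * A g * eProj z A (a * j)).trace := Matrix.trace_mul_cycle _ _ _
      _ = _ := by rw [← map_mul, inv_mul_cancel, map_one, one_mul]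
  rw [← mult_cast hz, ← mult_cast hz] at e
  exact_mod_cast e.symm

/-- The exponent by which an element of the normaliser acts on `z`. -/
noncomputable def aexp (hz : orderOf z = p) :
    Subgroup.normalizer ((Subgroup.zpowers z : Subgroup G) : Set G) →* (ZMod p)ˣ := by
  classical
  have hex : ∀ g : Subgroup.normalizer ((Subgroup.zpowers z : Subgroup G) : Set G),
      ∃ a : ZMod p, a ≠ 0 ∧ (g : G) * z * (g : G)⁻¹ = z ^ a.val := fun g => by
    obtain ⟨s, -, hs, e⟩ := exists_exp_of_mem_normalizer hz g.2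
    exact ⟨(s : ZMod p), fun h => hs ((CharP.cast_eq_zero_iff (ZMod p) p s).1 h),
      by rw [pow_val_natCast hz]; exact e⟩
  refine
    { toFun := fun g => Units.mk0 (hex g).choose (hex g).choose_spec.1
      map_one' := Units.ext ?_
      map_mul' := fun x y => Units.ext ?_ }
  · have h := (hex 1).choose_spec.2
    simp only [Units.val_mk0, Units.val_one]
    refine (zpow_val_eq_iff hz).1 (h.symm.trans ?_)
    simp [ZMod.val_one]
  · have hxy := (hex (x * y)).choose_spec.2
    have hx := (hex x).choose_spec.2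
    have hy := (hex y).choose_spec.2
    simp only [Units.val_mk0, Units.val_mul]
    refine (zpow_val_eq_iff hz).1 ?_
    rw [← hxy, ← pow_val_mul hz, ← hx, conj_pow, ← hy, Subgroup.coe_mul]
    group

theorem aexp_spec (hz : orderOf z = p)
    (g : Subgroup.normalizer ((Subgroup.zpowers z : Subgroup G) : Set G)) :
    (g : G) * z * (g : G)⁻¹ = z ^ ((aexp hz g : ZMod p)).val := by
  unfold aexp
  simp only [MonoidHom.coe_mk, OneHom.coe_mk, Units.val_mk0]
  exact (Exists.choose_spec (p := fun a : ZMod p => a ≠ 0 ∧ (g : G) * z * (g : G)⁻¹ = z ^ a.val)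
    _).2

theorem sum_eProj_comm (hz : orderOf z = p) {S : Finset (ZMod p)} (f : ZMod p → ℂ)
    (hS : ∀ g : Subgroup.normalizer ((Subgroup.zpowers z : Subgroup G) : Set G), ∀ j,
      j ∈ S ↔ (aexp hz g : ZMod p) * j ∈ S)
    (hf : ∀ g : Subgroup.normalizer ((Subgroup.zpowers z : Subgroup G) : Set G), ∀ j,
      f ((aexp hz g : ZMod p) * j) = f j)
    (g : G) (hg : g ∈ Subgroup.normalizer ((Subgroup.zpowers z : Subgroup G) : Set G)) :
    Commute (∑ j ∈ S, f j • eProj z A j) (A g) := by
  show _ * A g = A g * _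
  set a : ZMod p := (aexp hz ⟨g, hg⟩ : ZMod p) with ha
  have ha0 : a ≠ 0 := (aexp hz ⟨g, hg⟩).ne_zero
  rw [Finset.sum_mul, Finset.mul_sum]
  refine (Finset.sum_bij' (fun j _ => a⁻¹ * j) (fun j _ => a * j) ?_ ?_ ?_ ?_ ?_).symm
  · intro j hj
    rw [hS ⟨g, hg⟩, ← ha, mul_inv_cancel_left₀ ha0]
    exact hj
  · intro j hj
    exact (hS ⟨g, hg⟩ j).1 hj
  · intro j _
    exact mul_inv_cancel_left₀ ha0 j
  · intro j _
    exact inv_mul_cancel_left₀ ha0 j
  · intro j hj
    rw [mul_smul_comm, conj_eProj hz ha0 (by rw [ha]; exact aexp_spec hz ⟨g, hg⟩), smul_mul_assoc]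
    congr 1
    have := hf ⟨g, hg⟩ (a⁻¹ * j)
    rw [← ha, mul_inv_cancel_left₀ ha0] at this
    exact this

end Normalizer

end Cfsg.Agent.H39.SmallDeg
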