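import Mathlib
import Cfsg.Agent.H39.SmallDeg.Eigen

/-!
A faithful irreducible representation of degree `p - 2` of a group with a non-normal subgroup of
order `p`: the centraliser of the subgroup is the product of it with the centre, and more than
half of the `p`-th roots of unity are eigenvalues.
-/

set_option autoImplicit false
set_option linter.unusedSectionVars false

namespace Cfsg.Agent.H39.SmallDeg

open Matrix IsLocalRing
open scoped commutatorElement
open Cfsg.Agent.H31.Defect

variable {G : Type*} [Group G] [Finite G]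

/-- The hypotheses: `z` spans a non-normal Sylow `p`-subgroup, `χ` is faithful of degree `p - 2`. -/
structure Hyp (p : ℕ) (z : G) (χ : Cfsg.IrrCharacter G) : Prop where
  ord : orderOf z = p
  sq : ¬ p ^ 2 ∣ Nat.card G
  notN : ¬ (Subgroup.zpowers z).Normal
  faith : ∀ g, χ.1 g = χ.1 1 → g = 1
  deg : χ.1 1 = ((p - 2 : ℕ) : ℂ)
  five : 5 < p

variable {p : ℕ} [hp : Fact p.Prime] {z : G} {χ : Cfsg.IrrCharacter G} {d : ℕ}
  {O : ValuationSubring ℂ} {A : G →* Matrix (Fin d) (Fin d) ℂ}

theorem Hyp.d_eq (H : Hyp p z χ) (L : Lat p χ.1 O A) : d = p - 2 := by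
  have h := L.tr 1
  rw [map_one, Matrix.trace_one, Fintype.card_fin, H.deg] at h
  exact_mod_cast h

theorem Hyp.eq_one_of_apply (H : Hyp p z χ) (L : Lat p χ.1 O A) {g : G} (h : A g = 1) : g = 1 := by
  refine H.faith g ?_
  rw [← L.tr g, ← L.tr 1, h, map_one]

theorem Hyp.central_of_scalar (H : Hyp p z χ) (L : Lat p χ.1 O A) {g : G} {c : ℂ}
    (h : A g = c • 1) : g ∈ Subgroup.center G := by
  rw [Subgroup.mem_center_iff]
  intro x
  have e : A (g⁻¹ * x⁻¹ * (g * x)) = 1 := by
    have hc : A x⁻¹ * A g = A g * A x⁻¹ := by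
      rw [h, mul_smul_comm, smul_mul_assoc, mul_one, one_mul]
    rw [map_mul, map_mul, map_mul]
    calc A g⁻¹ * A x⁻¹ * (A g * A x) = A g⁻¹ * (A x⁻¹ * A g) * A x := by
          simp only [Matrix.mul_assoc]
      _ = A g⁻¹ * A g * (A x⁻¹ * A x) := by rw [hc]; simp only [Matrix.mul_assoc]
      _ = 1 := by rw [← map_mul, ← map_mul, inv_mul_cancel, inv_mul_cancel, map_one, one_mul]
  have h2 := H.eq_one_of_apply L e
  calc x * g = x * g * (g⁻¹ * x⁻¹ * (g * x)) := by rw [h2, mul_one]
    _ = g * x := by group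

theorem Hyp.z_not_central (H : Hyp p z χ) : z ∉ Subgroup.center G := fun h => by
  refine H.notN ⟨fun n hn g => ?_⟩
  obtain ⟨k, rfl⟩ := hn
  rw [Subgroup.mem_center_iff.1 (Subgroup.zpow_mem _ h k) g, mul_inv_cancel_right]
  exact ⟨k, rfl⟩

/-- An integral idempotent commuting with the normaliser is trivial. -/
theorem Hyp.idem_trivial (H : Hyp p z χ) (L : Lat p χ.1 O A) {ε : Matrix (Fin d) (Fin d) ℂ}
    (hε : ε * ε = ε) (hint : IntMat O ε)
    (hc : ∀ g ∈ Subgroup.normalizer ((Subgroup.zpowers z : Subgroup G) : Set G),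
      Commute ε (A g)) : ε = 0 ∨ ε = 1 := by
  classical
  set E : Finset (ZMod p) := eSupp z A with hE
  obtain ⟨c, hcl⟩ := exists_scalar_close H.ord H.sq A L.int L.schur (aeval_eSupp H.ord) hint hc
  have hcomm : ∀ j : ZMod p, Commute ε (eProj z A j) := fun j => by
    refine Commute.smul_right (Commute.sum_right _ _ _ fun i _ => Commute.smul_right ?_ _) _
    exact hc _ (Subgroup.le_normalizer (Subgroup.pow_mem _ (Subgroup.mem_zpowers z) _))
  by_contra hne
  push Not at hne
  have hex : ∀ M : Matrix (Fin d) (Fin d) ℂ, M ≠ 0 → ∃ j : ZMod p, eProj z A j * M ≠ 0 := by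
    intro M hM
    by_contra h
    push Not at h
    apply hM
    rw [← one_mul M, ← sum_eProj (p := p) (z := z) (A := A), Finset.sum_mul]
    exact Finset.sum_eq_zero fun j _ => h j
  have hev : ∀ (M : Matrix (Fin d) (Fin d) ℂ) (φ : ℂ), M ≠ 0 → ε * M = φ • M →
      O.valuation (c - φ) * O.valuation (rt (1 : ZMod p) - 1) ^ (E.card - 1) ≤
        O.valuation (rt (1 : ZMod p) - 1) ^ (p - 1) := by
    intro M φ hM he
    obtain ⟨j, hj⟩ := hex M hM
    obtain ⟨u, hu, hzu⟩ := exists_eigvec H.ord M hj
    refine hcl j (mem_eSupp.2 fun h => hj (by rw [h, zero_mul])) _ φ hu hzu ?_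
    rw [Matrix.mulVec_mulVec, ← Matrix.mul_assoc, (hcomm j).eq, Matrix.mul_assoc, he,
      mul_smul_comm, Matrix.smul_mulVec]
  have h1 := hev ε 1 hne.1 (by rw [hε, one_smul])
  have h0 := hev (1 - ε) 0 (sub_ne_zero.2 (Ne.symm hne.2))
    (by rw [mul_sub, mul_one, hε, sub_self, zero_smul])
  have h2 : O.valuation (rt (1 : ZMod p) - 1) ^ (E.card - 1) ≤
      O.valuation (rt (1 : ZMod p) - 1) ^ (p - 1) := by
    have e : (1 : ℂ) = (c - 0) - (c - 1) := by ring
    calc O.valuation (rt (1 : ZMod p) - 1) ^ (E.card - 1)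
        = O.valuation ((c - 0) - (c - 1)) * O.valuation (rt (1 : ZMod p) - 1) ^ (E.card - 1) := by
          rw [← e, map_one, one_mul]
      _ ≤ max (O.valuation (c - 0)) (O.valuation (c - 1)) *
            O.valuation (rt (1 : ZMod p) - 1) ^ (E.card - 1) :=
          mul_le_mul_left (Valuation.map_sub _ _ _) _
      _ ≤ _ := by
          rcases max_choice (O.valuation (c - 0)) (O.valuation (c - 1)) with h | h <;> rw [h]
          · exact h0
          · exact h1
  have h3 := le_of_pi_pow_le L.mem h2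
  have h4 := card_eSupp_le (A := A) H.ord
  rw [← hE] at h4
  have := H.d_eq L
  have := H.five
  omega

theorem card_range_aexp_dvd (hz : orderOf z = p) :
    Nat.card (aexp (G := G) hz).range ∣ p - 1 := by
  have h := Subgroup.card_subgroup_dvd_card (aexp (G := G) hz).range
  rwa [Nat.card_eq_fintype_card (α := (ZMod p)ˣ), ZMod.card_units] at h

/-- More than half of the roots of unity are eigenvalues. -/
theorem Hyp.card_supp (H : Hyp p z χ) (L : Lat p χ.1 O A) :
    p + 1 ≤ 2 * (eSupp z A : Finset (ZMod p)).card := by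
  classical
  set E : Finset (ZMod p) := eSupp z A with hE
  obtain ⟨j₀, hj₀, hj₀0⟩ : ∃ j ∈ E, j ≠ 0 := by
    by_contra h
    push Not at h
    have e : A z = 1 := by
      have h1 : A z * ∑ j : ZMod p, eProj z A j = ∑ j : ZMod p, eProj z A j := by
        rw [Finset.mul_sum]
        refine Finset.sum_congr rfl fun j _ => ?_
        rw [z_mul_eProj H.ord]
        by_cases hj : j ∈ E
        · rw [h j hj, rt_zero, one_smul]
        · rw [not_ne_iff.1 (fun e => hj (mem_eSupp.2 e)), smul_zero]
      rwa [sum_eProj, mul_one] at h1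
    have := H.eq_one_of_apply L e
    rw [← orderOf_eq_one_iff, H.ord] at this
    exact hp.out.one_lt.ne' this
  set N := Subgroup.normalizer ((Subgroup.zpowers z : Subgroup G) : Set G)
  set S : Finset (ZMod p) := Finset.univ.image fun a : (aexp (G := G) H.ord).range =>
    ((a : (ZMod p)ˣ) : ZMod p) * j₀ with hS
  have hmemS : ∀ j, j ∈ S ↔ ∃ g : N, (aexp H.ord g : ZMod p) * j₀ = j := by
    intro j
    simp only [hS, Finset.mem_image, Finset.mem_univ, true_and]
    constructor
    · rintro ⟨⟨_, g, rfl⟩, e⟩; exact ⟨g, e⟩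
    · rintro ⟨g, e⟩; exact ⟨⟨_, g, rfl⟩, e⟩
  have hmc : ∀ (g : N) (j : ZMod p), mult z A ((aexp H.ord g : ZMod p) * j) = mult z A j :=
    fun g j => mult_conj H.ord (aexp H.ord g).ne_zero (aexp_spec H.ord g) j
  have hSE : S ⊆ E := by
    intro j hj
    obtain ⟨g, rfl⟩ := (hmemS j).1 hj
    rw [hE, ← mult_pos_iff H.ord, hmc]
    exact (mult_pos_iff H.ord).2 hj₀
  have hScard : S.card = Nat.card (aexp (G := G) H.ord).range := by
    rw [hS, Finset.card_image_of_injective _ fun a b e => Subtype.ext (Units.ext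
      (mul_right_cancel₀ hj₀0 e)), Finset.card_univ, Nat.card_eq_fintype_card]
  have hd := H.d_eq L
  have h5 := H.five
  have hj₀S : j₀ ∈ S := (hmemS j₀).2 ⟨1, by simp⟩
  by_cases hSE' : S = E
  · -- a single orbit
    exfalso
    have hsum : d = S.card * mult z A j₀ := by
      conv_lhs => rw [← sum_mult (A := A) H.ord]
      rw [← Finset.sum_subset (Finset.subset_univ S)]
      · refine Finset.sum_const_nat fun j hj => ?_
        obtain ⟨g, rfl⟩ := (hmemS j).1 hj
        exact hmc g j₀
      · intro j _ hj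
        rw [mult_eq_zero_iff H.ord]
        exact not_ne_iff.1 fun e => hj (hSE' ▸ mem_eSupp.2 e)
    have h1 : S.card ∣ p - 1 := hScard ▸ card_range_aexp_dvd H.ord
    have h2 : S.card ∣ p - 2 := ⟨mult z A j₀, by omega⟩
    have h3 : S.card = 1 := by
      have h4 := Nat.dvd_sub h1 h2
      rw [show p - 1 - (p - 2) = 1 by omega] at h4
      exact Nat.dvd_one.1 h4
    obtain ⟨a, ha⟩ := Finset.card_eq_one.1 h3
    have hz : A z = rt a • 1 := by
      have h1 : A z * ∑ j : ZMod p, eProj z A j = rt a • ∑ j : ZMod p, eProj z A j := by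
        rw [Finset.mul_sum, Finset.smul_sum]
        refine Finset.sum_congr rfl fun j _ => ?_
        rw [z_mul_eProj H.ord]
        by_cases hj : j ∈ E
        · rw [← hSE', ha, Finset.mem_singleton] at hj
          rw [hj]
        · rw [not_ne_iff.1 (fun e => hj (mem_eSupp.2 e)), smul_zero, smul_zero]
      rwa [sum_eProj, mul_one] at h1
    exact H.z_not_central (H.central_of_scalar L hz)
  · obtain ⟨k₀, hk₀, hk₀S⟩ : ∃ k ∈ E, k ∉ S := by
      by_contra h
      push Not at h
      exact hSE' (Finset.Subset.antisymm hSE h)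
    set D := E.card with hD
    set lam : ℂ := (rt (1 : ZMod p) - 1) ^ (D - 1) with hlam
    set Φ : Matrix (Fin d) (Fin d) ℂ := ∑ j ∈ S, lam • eProj z A j with hΦ
    have hint : IntMat O Φ := by
      refine IntMat.sum _ fun j hj => ?_
      have hjE := hSE hj
      set γ := (qPoly (E.erase j)).eval (rt j)
      have hγ : O.valuation γ = O.valuation (rt (1 : ZMod p) - 1) ^ (D - 1) := by
        rw [val_qPoly_eval (Finset.notMem_erase _ _), Finset.card_erase_of_mem hjE]
      have hγ0 : γ ≠ 0 := by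
        rw [← Valuation.ne_zero_iff O.valuation, hγ]
        exact pow_ne_zero _ val_pi_ne_zero
      have e : lam • eProj z A j = (lam / γ) • Polynomial.aeval (A z) (qPoly (E.erase j)) := by
        rw [hE, aeval_erase H.ord, smul_smul, ← hE, div_mul_cancel₀ _ hγ0]
      rw [e]
      refine (intMat_qPoly (L.int z) _).smul ?_
      rw [map_div₀, hlam, map_pow, hγ, div_self]
      exact pow_ne_zero _ val_pi_ne_zero
    have hinv : ∀ (g : N) (j : ZMod p), j ∈ S ↔ (aexp H.ord g : ZMod p) * j ∈ S := by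
      intro g j
      rw [hmemS, hmemS]
      constructor
      · rintro ⟨g', rfl⟩; exact ⟨g * g', by rw [map_mul, Units.val_mul, mul_assoc]⟩
      · rintro ⟨g', e⟩
        exact ⟨g⁻¹ * g', by rw [map_mul, Units.val_mul, mul_assoc, e, map_inv,
          Units.inv_mul_cancel_left]⟩
    obtain ⟨c, hcl⟩ := exists_scalar_close H.ord H.sq A L.int L.schur (aeval_eSupp H.ord) hint
      (fun g hg => sum_eProj_comm H.ord (fun _ => lam) hinv (fun _ _ => rfl) g hg)
    have hΦe : ∀ j : ZMod p, Φ * eProj z A j = (if j ∈ S then lam else 0) • eProj z A j := by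
      intro j
      rw [hΦ, Finset.sum_mul]
      simp only [smul_mul_assoc, eProj_mul H.ord, smul_ite, smul_zero]
      rw [Finset.sum_ite_eq' S j fun _ => lam • eProj z A j]
      split <;> simp
    have hev : ∀ j ∈ E, O.valuation (c - (if j ∈ S then lam else 0)) *
        O.valuation (rt (1 : ZMod p) - 1) ^ (D - 1) ≤
        O.valuation (rt (1 : ZMod p) - 1) ^ (p - 1) := by
      intro j hj
      obtain ⟨u, hu, hzu⟩ := exists_eigvec (A := A) H.ord (j := j) 1
        (by rw [mul_one]; exact mem_eSupp.1 hj)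
      rw [mul_one] at hu hzu
      refine hcl j hj _ _ hu hzu ?_
      rw [Matrix.mulVec_mulVec, hΦe, Matrix.smul_mulVec]
    have ha := hev j₀ hj₀
    have hb := hev k₀ hk₀
    rw [if_pos hj₀S] at ha
    rw [if_neg hk₀S] at hb
    have h2 : O.valuation (rt (1 : ZMod p) - 1) ^ ((D - 1) + (D - 1)) ≤
        O.valuation (rt (1 : ZMod p) - 1) ^ (p - 1) := by
      have e : lam = (c - 0) - (c - lam) := by ring
      calc O.valuation (rt (1 : ZMod p) - 1) ^ ((D - 1) + (D - 1))
          = O.valuation ((c - 0) - (c - lam)) * O.valuation (rt (1 : ZMod p) - 1) ^ (D - 1) := by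
            rw [← e, hlam, map_pow, pow_add]
        _ ≤ max (O.valuation (c - 0)) (O.valuation (c - lam)) *
              O.valuation (rt (1 : ZMod p) - 1) ^ (D - 1) :=
            mul_le_mul_left (Valuation.map_sub _ _ _) _
        _ ≤ _ := by
            rcases max_choice (O.valuation (c - 0)) (O.valuation (c - lam)) with h | h <;> rw [h]
            · exact hb
            · exact ha
    have h3 := le_of_pi_pow_le L.mem h2
    omega

/-- Some eigenvalue is simple. -/
theorem Hyp.exists_simple (H : Hyp p z χ) (L : Lat p χ.1 O A) :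
    ∃ j : ZMod p, mult z A j = 1 := by
  by_contra h
  push Not at h
  have h1 := H.card_supp L
  have h2 : 2 * (eSupp z A : Finset (ZMod p)).card ≤ d := by
    calc 2 * (eSupp z A : Finset (ZMod p)).card
          = ∑ j ∈ (eSupp z A : Finset (ZMod p)), 2 := by
          rw [Finset.sum_const, smul_eq_mul, mul_comm]
      _ ≤ ∑ j ∈ (eSupp z A : Finset (ZMod p)), mult z A j := Finset.sum_le_sum fun j hj => by
          have := (mult_pos_iff H.ord).2 hj
          have := h j
          omega
      _ ≤ ∑ j : ZMod p, mult z A j := Finset.sum_le_sum_of_subset (Finset.subset_univ _)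
      _ = d := sum_mult H.ord
  have := H.d_eq L
  omega

variable {V K : Subgroup G}

/-- The `p`-complement of the centraliser of `z` is central. -/
theorem Hyp.V_le_center (H : Hyp p z χ) (L : Lat p χ.1 O A) (S : Parts p z V K) :
    V ≤ Subgroup.center G := by
  classical
  set N := Subgroup.normalizer ((Subgroup.zpowers z : Subgroup G) : Set G) with hN
  have hVN : ∀ v ∈ V, v ∈ N := fun v hv => S.H_le (S.le_H hv)
  obtain ⟨j₁, hj₁⟩ := H.exists_simple L
  -- a common eigenvector of `V`
  obtain ⟨u₀, hu₀⟩ := exists_mulVec_ne (M := eProj z A j₁)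
    (fun h => by rw [← mult_eq_zero_iff H.ord, hj₁] at h; exact one_ne_zero h)
  set u := eProj z A j₁ *ᵥ u₀ with hu
  have heig : ∀ v : V, ∃ c : ℂ, A (v : G) *ᵥ u = c • u := by
    intro v
    have hrk : Module.finrank ℂ (LinearMap.range (eProj z A j₁).mulVecLin) = 1 := hj₁
    obtain ⟨⟨w, hw⟩, hw0, hall⟩ := finrank_eq_one_iff'.1 hrk
    obtain ⟨a, ha⟩ := hall ⟨u, u₀, by simp [hu]⟩
    obtain ⟨b, hb⟩ := hall ⟨A (v : G) *ᵥ u, A (v : G) *ᵥ u₀, by
      have hc : Commute (A (v : G)) (eProj z A j₁) := by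
        refine Commute.smul_right (Commute.sum_right _ _ _ fun i _ => Commute.smul_right ?_ _) _
        exact ((S.commute v).symm.pow_right _).map A
      rw [Matrix.mulVecLin_apply, hu, Matrix.mulVec_mulVec, Matrix.mulVec_mulVec, hc.eq]⟩
    have hau : a • w = u := congrArg Subtype.val ha
    have hbu : b • w = A (v : G) *ᵥ u := congrArg Subtype.val hb
    refine ⟨b / a, ?_⟩
    rw [← hbu, ← hau, smul_smul, div_mul_cancel₀]
    rintro rfl
    rw [zero_smul] at hau
    exact hu₀ hau.symm
  choose θ hθ using heig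
  have hθmul : ∀ a b : V, θ (a * b) = θ a * θ b := by
    intro a b
    have h := hθ (a * b)
    rw [Subgroup.coe_mul, map_mul, ← Matrix.mulVec_mulVec, hθ b, Matrix.mulVec_smul, hθ a,
      smul_smul] at h
    rw [mul_comm]
    exact (smul_left_injective ℂ hu₀ h).symm
  have hθ1 : θ 1 = 1 := by
    have h := hθ 1
    rw [Subgroup.coe_one, map_one, Matrix.one_mulVec] at h
    exact (smul_left_injective ℂ hu₀ ((one_smul ℂ u).trans h)).symm
  have hθne : ∀ a, θ a ≠ 0 := fun a h => by
    have := hθmul a a⁻¹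
    rw [mul_inv_cancel, hθ1, h, zero_mul] at this
    exact one_ne_zero this
  let _ : Fintype V := Fintype.ofFinite V
  have hVc : ∀ c : ℕ, c ∣ Nat.card V → O.valuation ((c : ℂ))⁻¹ ≤ 1 := fun c hc => by
    rw [map_inv₀, val_nat_eq_one L.mem (fun hd => S.ndvd_V (hd.trans hc)), inv_one]
  -- the derived subgroup of `V` acts trivially
  have hab : ∀ a b : V, a * b = b * a := by
    set V₀ : Subgroup V := commutator V with hV₀
    let _ : Fintype V₀ := Fintype.ofFinite V₀
    have hθ0 : ∀ w : V₀, θ w = 1 := by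
      let θu : V →* ℂˣ :=
        { toFun := fun a => Units.mk0 (θ a) (hθne a)
          map_one' := Units.ext hθ1
          map_mul' := fun a b => Units.ext (hθmul a b) }
      intro w
      have h := Abelianization.commutator_subset_ker θu w.2
      exact congrArg Units.val (MonoidHom.mem_ker.1 h)
    set ε : Matrix (Fin d) (Fin d) ℂ :=
      (Fintype.card V₀ : ℂ)⁻¹ • ∑ w : V₀, A ((w : V) : G) with hε
    have habs : ∀ w : V₀, A ((w : V) : G) * ε = ε := fun w => by
      rw [hε, mul_smul_comm, Finset.mul_sum]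
      congr 1
      refine Fintype.sum_equiv (Equiv.mulLeft w) _ _ fun x => ?_
      rw [← map_mul]; rfl
    have hε2 : ε * ε = ε := by
      conv_lhs => arg 1; rw [hε]
      rw [smul_mul_assoc, Finset.sum_mul, Finset.sum_congr rfl fun w _ => habs w, Finset.sum_const,
        Finset.card_univ, ← Nat.cast_smul_eq_nsmul ℂ, smul_smul, inv_mul_cancel₀, one_smul]
      exact Nat.cast_ne_zero.2 Fintype.card_ne_zero
    have hint : IntMat O ε := by
      refine IntMat.smul (hVc _ ?_) (IntMat.sum _ fun w _ => L.int _)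
      rw [← Nat.card_eq_fintype_card]
      exact Subgroup.card_subgroup_dvd_card V₀
    have hc : ∀ g ∈ N, Commute ε (A g) := by
      intro g hg
      refine Commute.smul_left ?_ _
      show (∑ w : V₀, A ((w : V) : G)) * A g = A g * ∑ w : V₀, A ((w : V) : G)
      rw [Finset.sum_mul, Finset.mul_sum]
      let c : V →* V :=
        { toFun := fun a => ⟨g⁻¹ * a * g, by simpa using S.normal g⁻¹ (N.inv_mem hg) a a.2⟩
          map_one' := Subtype.ext (by simp)
          map_mul' := fun a b => Subtype.ext (by push_cast; group) }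
      have hcV : ∀ w : V₀, c w ∈ V₀ := by
        intro w
        have h1 : (commutator V).map c ≤ commutator V := by
          rw [commutator_def, Subgroup.map_commutator]
          exact Subgroup.commutator_mono le_top le_top
        exact h1 (Subgroup.mem_map_of_mem c w.2)
      refine Fintype.sum_bijective (fun w : V₀ => (⟨c w, hcV w⟩ : V₀))
        (Finite.injective_iff_bijective.1 fun a b h => Subtype.ext (Subtype.ext (by
          simpa [c] using congrArg (fun x : V₀ => ((x : V) : G)) h))) _ _ fun w => ?_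
      rw [← map_mul, ← map_mul]
      congr 1
      simp [c, mul_assoc]
    have hεu : ε *ᵥ u = u := by
      rw [hε, Matrix.smul_mulVec, Matrix.sum_mulVec, Finset.sum_congr rfl fun w _ => by
        rw [hθ (w : V), hθ0, one_smul], Finset.sum_const, Finset.card_univ,
        ← Nat.cast_smul_eq_nsmul ℂ, smul_smul, inv_mul_cancel₀, one_smul]
      exact Nat.cast_ne_zero.2 Fintype.card_ne_zero
    rcases H.idem_trivial L hε2 hint hc with h | h
    · exfalso
      rw [h, Matrix.zero_mulVec] at hεu
      exact hu₀ hεu.symm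
    · intro a b
      have hmem : ⁅a, b⁆ ∈ V₀ := Subgroup.commutator_mem_commutator (Subgroup.mem_top _) (Subgroup.mem_top _)
      have h1 := habs ⟨_, hmem⟩
      rw [h, mul_one] at h1
      have h2 : ⁅a, b⁆ = 1 := Subtype.ext (by simpa using H.eq_one_of_apply L h1)
      exact commutatorElement_eq_one_iff_mul_comm.1 h2
  -- the idempotents of the linear characters
  let E : (V → ℂ) → Matrix (Fin d) (Fin d) ℂ := fun f =>
    (Fintype.card V : ℂ)⁻¹ • ∑ v : V, (f v)⁻¹ • A (v : G)
  have hcV0 : (Fintype.card V : ℂ) ≠ 0 := Nat.cast_ne_zero.2 Fintype.card_ne_zero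
  have hEmul : ∀ f : V → ℂ, (∀ a b, f (a * b) = f a * f b) → (∀ a, f a ≠ 0) → ∀ v : V,
      A (v : G) * E f = f v • E f := by
    intro f hf hfne v
    simp only [E]
    rw [mul_smul_comm, smul_comm (f v)]
    refine congrArg (fun M : Matrix (Fin d) (Fin d) ℂ => (Fintype.card V : ℂ)⁻¹ • M) ?_
    rw [Finset.mul_sum, Finset.smul_sum]
    refine Fintype.sum_equiv (Equiv.mulLeft v) _ _ fun x => ?_
    rw [mul_smul_comm, Equiv.coe_mulLeft, ← map_mul, smul_smul, hf, Subgroup.coe_mul]
    congr 1
    field_simp [hfne v, hfne x]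
  -- the action of the normaliser on linear characters
  let cj : N → V → V := fun g v =>
    ⟨(g : G)⁻¹ * v * g, by simpa using S.normal _ (N.inv_mem g.2) v v.2⟩
  let act : N → (V → ℂ) → (V → ℂ) := fun g f v => f (cj g v)
  let mact : MulAction N (V → ℂ) :=
    { smul := act
      one_smul := fun f => funext fun v => congrArg f (Subtype.ext (by simp [cj]))
      mul_smul := fun a b f => funext fun v => congrArg f
        (Subtype.ext (by simp [cj, mul_assoc])) }
  let _ : Fintype N := Fintype.ofFinite N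
  set Θ : Finset (V → ℂ) := (Finset.univ : Finset N).image fun g => act g θ with hΘ
  have hΘf : ∀ f ∈ Θ, (∀ a b, f (a * b) = f a * f b) ∧ ∀ a, f a ≠ 0 := by
    intro f hf
    obtain ⟨g, -, rfl⟩ := Finset.mem_image.1 hf
    refine ⟨fun a b => ?_, fun a => hθne _⟩
    show θ _ = θ _ * θ _
    rw [← hθmul]
    congr 1
    exact Subtype.ext (by simp [cj, mul_assoc])
  have horth : ∀ f ∈ Θ, ∀ f' ∈ Θ, E f * E f' = if f = f' then E f' else 0 := by
    intro f hf f' hf'
    have e : ∀ v : V, (f v)⁻¹ • A (v : G) * E f' = ((f v)⁻¹ * f' v) • E f' := fun v => by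
      rw [smul_mul_assoc, hEmul f' (hΘf f' hf').1 (hΘf f' hf').2, smul_smul]
    show ((Fintype.card V : ℂ)⁻¹ • ∑ v : V, (f v)⁻¹ • A (v : G)) * E f' = _
    rw [smul_mul_assoc, Finset.sum_mul, Finset.sum_congr rfl fun v _ => e v, ← Finset.sum_smul]
    split_ifs with hff
    · subst hff
      rw [Finset.sum_congr rfl fun v _ => inv_mul_cancel₀ ((hΘf f hf).2 v), Finset.sum_const,
        Finset.card_univ, nsmul_eq_mul, mul_one, smul_smul, inv_mul_cancel₀ hcV0, one_smul]
    · obtain ⟨w, hw⟩ := Function.ne_iff.1 hff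
      have hs : ∑ v : V, (f v)⁻¹ * f' v = 0 := by
        have h1 : ((f w)⁻¹ * f' w) * ∑ v : V, (f v)⁻¹ * f' v = ∑ v : V, (f v)⁻¹ * f' v := by
          rw [Finset.mul_sum]
          refine Fintype.sum_equiv (Equiv.mulLeft w) _ _ fun x => ?_
          rw [Equiv.coe_mulLeft, (hΘf f hf).1, (hΘf f' hf').1, mul_inv]
          ring
        have h2 : ((f w)⁻¹ * f' w - 1) * ∑ v : V, (f v)⁻¹ * f' v = 0 := by
          rw [sub_mul, one_mul, h1, sub_self]
        refine (mul_eq_zero.1 h2).resolve_left (sub_ne_zero.2 fun e => hw ?_)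
        have hne := (hΘf f hf).2 w
        field_simp at e
        exact e.symm
      rw [hs, zero_smul, smul_zero]
  set ε : Matrix (Fin d) (Fin d) ℂ := ∑ f ∈ Θ, E f with hεdef
  have hε2 : ε * ε = ε := by
    rw [hεdef, Finset.sum_mul]
    refine Finset.sum_congr rfl fun f hf => ?_
    rw [Finset.mul_sum, Finset.sum_congr rfl fun f' hf' => horth f hf f' hf', Finset.sum_ite_eq,
      if_pos hf]
  have hint : IntMat O ε := by
    refine IntMat.sum _ fun f hf => IntMat.smul (hVc _ (dvd_of_eq Nat.card_eq_fintype_card.symm)) ?_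
    refine IntMat.sum _ fun v _ => IntMat.smul ?_ (L.int _)
    have hf1 : f 1 = 1 := by
      have := (hΘf f hf).1 1 1
      rw [one_mul] at this
      exact mul_left_cancel₀ ((hΘf f hf).2 1) (this.symm.trans (mul_one _).symm)
    have hp1 : f v ^ Fintype.card V = 1 := by
      let φ : V →* ℂ := { toFun := f, map_one' := hf1, map_mul' := (hΘf f hf).1 }
      show φ v ^ Fintype.card V = 1
      rw [← map_pow, pow_card_eq_one, map_one]
    rw [map_inv₀, val_root_of_unity Fintype.card_ne_zero hp1, inv_one]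
  have hEconj : ∀ (g : N) (f : V → ℂ), A (g : G) * E f * A (g : G)⁻¹ = E (act g f) := by
    intro g f
    simp only [E]
    rw [mul_smul_comm, smul_mul_assoc]
    refine congrArg (fun M : Matrix (Fin d) (Fin d) ℂ => (Fintype.card V : ℂ)⁻¹ • M) ?_
    rw [Finset.mul_sum, Finset.sum_mul]
    refine Fintype.sum_bijective (fun v : V => (⟨(g : G) * v * (g : G)⁻¹,
      S.normal _ g.2 v v.2⟩ : V)) (Finite.injective_iff_bijective.1 fun a b h => Subtype.ext (by
        simpa using congrArg Subtype.val h)) _ _ fun v => ?_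
    rw [mul_smul_comm, smul_mul_assoc, ← map_mul, ← map_mul]
    congr 2
    show f v = f (cj g ⟨_, _⟩)
    congr 1
    exact Subtype.ext (by simp [cj, mul_assoc])
  have hΘinv : ∀ (g : N), Θ.image (act g) = Θ := by
    intro g
    ext f
    simp only [hΘ, Finset.mem_image, Finset.mem_univ, true_and, exists_exists_eq_and]
    constructor
    · rintro ⟨a, rfl⟩
      exact ⟨g * a, mact.mul_smul g a θ⟩
    · rintro ⟨a, rfl⟩
      exact ⟨g⁻¹ * a, by rw [show act g (act (g⁻¹ * a) θ) = act (g * (g⁻¹ * a)) θ from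
        (mact.mul_smul g (g⁻¹ * a) θ).symm, mul_inv_cancel_left]⟩
  have hact_inj : ∀ g : N, Function.Injective (act g) := fun g => MulAction.injective g
  have hc : ∀ g ∈ N, Commute ε (A g) := by
    intro g hg
    have h : A g * ε * A g⁻¹ = ε := by
      rw [hεdef, Finset.mul_sum, Finset.sum_mul,
        Finset.sum_congr rfl fun f _ => hEconj ⟨g, hg⟩ f]
      conv_rhs => rw [← hΘinv ⟨g, hg⟩]
      rw [Finset.sum_image fun a _ b _ h => hact_inj _ h]
    show ε * A g = A g * ε
    conv_lhs => rw [← h]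
    rw [mul_assoc, ← map_mul, inv_mul_cancel, map_one, mul_one]
  have hθΘ : θ ∈ Θ := Finset.mem_image.2 ⟨1, Finset.mem_univ _, mact.one_smul θ⟩
  have hEu : ∀ f ∈ Θ, E f *ᵥ u = if f = θ then u else 0 := by
    intro f hf
    have e : E f *ᵥ u = ((Fintype.card V : ℂ)⁻¹ * ∑ v : V, (f v)⁻¹ * θ v) • u := by
      simp only [E, Matrix.smul_mulVec, Matrix.sum_mulVec, hθ, smul_smul, ← Finset.sum_smul]
    rw [e]
    split_ifs with hff
    · subst hff
      rw [Finset.sum_congr rfl fun v _ => inv_mul_cancel₀ (hθne v), Finset.sum_const,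
        Finset.card_univ, nsmul_eq_mul, mul_one, inv_mul_cancel₀ hcV0, one_smul]
    · have h0 := horth f hf θ hθΘ
      rw [if_neg hff] at h0
      have h1 := congrArg (fun M : Matrix (Fin d) (Fin d) ℂ => M *ᵥ u) h0
      have hθu : E θ *ᵥ u = u := by
        simp only [E, Matrix.smul_mulVec, Matrix.sum_mulVec, hθ, smul_smul]
        rw [Finset.sum_congr rfl fun v _ => by rw [inv_mul_cancel₀ (hθne v), one_smul],
          Finset.sum_const, Finset.card_univ, ← Nat.cast_smul_eq_nsmul ℂ, smul_smul,
          inv_mul_cancel₀ hcV0, one_smul]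
      simp only [← Matrix.mulVec_mulVec, hθu, Matrix.zero_mulVec] at h1
      rw [← e, h1]
  have hε1 : ε = 1 := by
    rcases H.idem_trivial L hε2 hint hc with h | h
    · exfalso
      have h1 : ε *ᵥ u = u := by
        rw [hεdef, Matrix.sum_mulVec, Finset.sum_congr rfl hEu, Finset.sum_ite_eq', if_pos hθΘ]
      rw [h, Matrix.zero_mulVec] at h1
      exact hu₀ h1.symm
    · exact h
  -- the orbit is trivial
  have htr : ∀ f ∈ Θ, (E f).trace = (E θ).trace := by
    intro f hf
    obtain ⟨g, -, rfl⟩ := Finset.mem_image.1 hf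
    rw [← hEconj, Matrix.trace_mul_cycle, ← map_mul, inv_mul_cancel, map_one, one_mul]
  have hcardΘ : Θ.card ∣ p - 1 := by
    refine dvd_trans ?_ (card_range_aexp_dvd H.ord)
    rw [← Subgroup.index_ker]
    have horb : Nat.card (MulAction.orbit N θ) = Θ.card := by
      rw [← Nat.card_eq_finsetCard Θ]
      refine Nat.card_congr (Equiv.subtypeEquivRight fun f => ?_)
      simp only [hΘ, Finset.mem_image, Finset.mem_univ, true_and]
      exact Iff.rfl
    rw [← horb, Nat.card_congr (MulAction.orbitEquivQuotientStabilizer N θ),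
      ← Subgroup.index_eq_card]
    refine Subgroup.index_dvd_of_le fun g hg => ?_
    have hgz : (g : G) * z * (g : G)⁻¹ = z := by
      rw [aexp_spec H.ord g, MonoidHom.mem_ker.1 hg, Units.val_one, ZMod.val_one, pow_one]
    have hgc : (g : G) ∈ Subgroup.centralizer ({z} : Set G) := by
      rw [Subgroup.mem_centralizer_singleton_iff]
      exact mul_inv_eq_iff_eq_mul.1 hgz
    obtain ⟨i, w, hw, e⟩ := S.cover _ hgc
    refine funext fun v => congrArg θ (Subtype.ext ?_)
    show (g : G)⁻¹ * v * g = v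
    have h1 : (v : G) * w = w * v := congrArg Subtype.val (hab v ⟨w, hw⟩)
    have h2 : Commute (z ^ i) (v : G) := (S.commute v).pow_left i
    have h3 : (v : G) * g = g * v := by
      rw [e, ← mul_assoc, ← h2.eq, mul_assoc, h1, mul_assoc]
    rw [mul_assoc, h3, inv_mul_cancel_left]
  have hd := H.d_eq L
  have hd2 : Θ.card ∣ p - 2 := by
    have hr : (E θ).trace = ((E θ).rank : ℂ) := trace_idem (by rw [horth θ hθΘ θ hθΘ, if_pos rfl])
    refine ⟨(E θ).rank, ?_⟩
    have h := congrArg Matrix.trace hε1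
    rw [hεdef, Matrix.trace_sum, Finset.sum_congr rfl htr, Finset.sum_const, Matrix.trace_one,
      Fintype.card_fin, hr, nsmul_eq_mul, ← Nat.cast_mul] at h
    have h2 : Θ.card * (E θ).rank = d := by exact_mod_cast h
    omega
  have hone : Θ = {θ} := by
    have h5 := H.five
    have h4 := Nat.dvd_sub hcardΘ hd2
    rw [show p - 1 - (p - 2) = 1 by omega] at h4
    obtain ⟨a, ha⟩ := Finset.card_eq_one.1 (Nat.dvd_one.1 h4)
    rw [ha, Finset.mem_singleton] at hθΘ
    rw [ha, hθΘ]
  rw [hone, Finset.sum_singleton] at hεdef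
  intro v hv
  refine H.central_of_scalar L (c := θ ⟨v, hv⟩) ?_
  rw [← hε1, hεdef, ← hEmul θ hθmul hθne ⟨v, hv⟩, ← hεdef, hε1, mul_one]

/-- The centre is the `p`-complement of the centraliser of `z`. -/
theorem Hyp.center_eq (H : Hyp p z χ) (L : Lat p χ.1 O A) (S : Parts p z V K) :
    Subgroup.center G = V := by
  refine le_antisymm (fun g hg => ?_) (H.V_le_center L S)
  obtain ⟨i, v, hv, rfl⟩ := S.cover g (Subgroup.mem_centralizer_singleton_iff.2
    (Subgroup.mem_center_iff.1 hg z).symm)
  have hzi : z ^ i ∈ Subgroup.center G := by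
    have := Subgroup.mul_mem _ hg (Subgroup.inv_mem _ (H.V_le_center L S hv))
    rwa [mul_inv_cancel_right] at this
  by_cases hd : p ∣ i
  · obtain ⟨q, rfl⟩ := hd
    rw [pow_mul, ← H.ord, pow_orderOf_eq_one, one_pow, one_mul]
    exact hv
  · exfalso
    refine H.z_not_central ?_
    have h := Subgroup.pow_mem _ hzi ((i : ZMod p)⁻¹).val
    rw [← pow_val_natCast H.ord, pow_val_mul H.ord, mul_inv_cancel₀
      (by rwa [Ne, CharP.cast_eq_zero_iff (ZMod p) p]), ZMod.val_one, pow_one] at h
    exact h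

end Cfsg.Agent.H39.SmallDeg
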