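import Mathlib
import Cfsg.Agent.H39.SmallDeg.Central
import Cfsg.Agent.H45.Galois

/-!
Class functions supported on the `p`-singular elements, their norms, and the eigenvalues of `z`
in a faithful irreducible representation of degree `p - 2`.
-/

set_option autoImplicit false
set_option linter.unusedSectionVars false

namespace Cfsg.Agent.H39.SmallDeg

open Cfsg.Agent.H31.Defect
open scoped ComplexConjugate

variable {p : ℕ} [hp : Fact p.Prime] {G : Type*} [Group G] [Fintype G] {z : G}
  {V K : Subgroup G}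

theorem conj_rt (a : ZMod p) : conj (rt a) = rt (-a) := by
  rw [rt, rt, AddChar.map_neg_eq_conj]

/-- The difference of two linear characters of the centraliser of `z`. -/
noncomputable def fdiff (ω : V → ℂ) (j k i : ZMod p) (v : V) : ℂ :=
  (rt (i * j) - rt (i * k)) * ω v

open scoped Classical in
/-- Its induced class function. -/
noncomputable def bigF [Fintype V] (z : G) (ω : V → ℂ) (j k : ZMod p) (g : G) : ℂ :=
  ((p * Nat.card V : ℕ) : ℂ)⁻¹ * ∑ x : G, ∑ i : ZMod p, ∑ v : V,
    if x * g * x⁻¹ = z ^ i.val * (v : G) then fdiff ω j k i v else 0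

/-- The multiplicity function of a class function. -/
noncomputable def cmult (z : G) (ξ : G → ℂ) (j : ZMod p) : ℂ :=
  (p : ℂ)⁻¹ * ∑ i : ZMod p, rt (-(i * j)) * ξ (z ^ i.val)

variable [Fintype V]

theorem bigF_isClassFunction (ω : V → ℂ) (j k : ZMod p) :
    Cfsg.IsClassFunction G (bigF z ω j k) := by
  classical
  intro g h
  simp only [bigF]
  congr 1
  refine Fintype.sum_equiv (Equiv.mulRight h) _ _ fun x => ?_
  simp only [Equiv.coe_mulRight]
  rw [show x * (h * g * h⁻¹) * x⁻¹ = x * h * g * (x * h)⁻¹ by group]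
  congr!

theorem classInner_bigF (ξ : G → ℂ) (hξ : Cfsg.IsClassFunction G ξ) (ω : V → ℂ) (j k : ZMod p) :
    Cfsg.classInner ξ (bigF z ω j k) = ((p * Nat.card V : ℕ) : ℂ)⁻¹ *
      ∑ i : ZMod p, ∑ v : V, ξ (z ^ i.val * (v : G)) * conj (fdiff ω j k i v) := by
  classical
  have hG : (Nat.card G : ℂ) ≠ 0 := Nat.cast_ne_zero.2 Nat.card_pos.ne'
  simp only [Cfsg.classInner, bigF, map_mul, map_inv₀, map_natCast, map_sum, mul_left_comm _
    (((p * Nat.card V : ℕ) : ℂ)⁻¹)]
  rw [← Finset.mul_sum, mul_left_comm]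
  congr 1
  simp only [Finset.mul_sum, apply_ite conj, map_zero, mul_ite, mul_zero]
  have hinner : ∀ (x : G) (i : ZMod p) (v : V), ∑ g : G, (if x * g * x⁻¹ = z ^ i.val * (v : G) then
      (Nat.card G : ℂ)⁻¹ * (ξ g * conj (fdiff ω j k i v)) else 0) =
      (Nat.card G : ℂ)⁻¹ * (ξ (z ^ i.val * (v : G)) * conj (fdiff ω j k i v)) := by
    intro x i v
    rw [Finset.sum_eq_single (x⁻¹ * (z ^ i.val * (v : G)) * x)]
    · rw [if_pos (by group)]
      congr 2
      have := hξ (z ^ i.val * (v : G)) x⁻¹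
      rwa [inv_inv] at this
    · intro g _ hg
      rw [if_neg]
      intro e
      exact hg (by rw [← e]; group)
    · intro h; exact absurd (Finset.mem_univ _) h
  rw [Finset.sum_comm]
  have : ∀ x : G, ∑ g : G, ∑ i : ZMod p, ∑ v : V, (if x * g * x⁻¹ = z ^ i.val * (v : G) then
      (Nat.card G : ℂ)⁻¹ * (ξ g * conj (fdiff ω j k i v)) else 0) =
      ∑ i : ZMod p, ∑ v : V,
        (Nat.card G : ℂ)⁻¹ * (ξ (z ^ i.val * (v : G)) * conj (fdiff ω j k i v)) := by
    intro x
    rw [Finset.sum_comm]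
    refine Finset.sum_congr rfl fun i _ => ?_
    rw [Finset.sum_comm]
    exact Finset.sum_congr rfl fun v _ => hinner x i v
  rw [Finset.sum_congr rfl fun x _ => this x, Finset.sum_const, Finset.card_univ,
    ← Nat.card_eq_fintype_card, nsmul_eq_mul, Finset.mul_sum]
  refine Finset.sum_congr rfl fun i _ => ?_
  rw [Finset.mul_sum]
  exact Finset.sum_congr rfl fun v _ => by field_simp

theorem classInner_bigF_central (ξ : G → ℂ) (hξ : Cfsg.IsClassFunction G ξ) (ω : V → ℂ)
    (hω : ∀ v, ω v * conj (ω v) = 1)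
    (hξω : ∀ (i : ZMod p) (v : V), ξ (z ^ i.val * (v : G)) = ω v * ξ (z ^ i.val)) (j k : ZMod p) :
    Cfsg.classInner ξ (bigF z ω j k) = cmult z ξ j - cmult z ξ k := by
  rw [classInner_bigF ξ hξ]
  have h : ∀ (i : ZMod p) (v : V), ξ (z ^ i.val * (v : G)) * conj (fdiff ω j k i v) =
      rt (-(i * j)) * ξ (z ^ i.val) - rt (-(i * k)) * ξ (z ^ i.val) := by
    intro i v
    rw [hξω, fdiff, map_mul, map_sub, conj_rt, conj_rt]
    linear_combination (ξ (z ^ i.val) * rt (-(i * j)) - ξ (z ^ i.val) * rt (-(i * k))) * hω v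
  simp only [h, Finset.sum_const, Finset.card_univ, nsmul_eq_mul]
  rw [cmult, cmult, ← mul_sub, ← Finset.sum_sub_distrib, ← Finset.mul_sum,
    ← Nat.card_eq_fintype_card, Nat.cast_mul]
  have hV : (Nat.card V : ℂ) ≠ 0 := Nat.cast_ne_zero.2 Nat.card_pos.ne'
  field_simp
  congr 1
  refine Finset.sum_congr rfl fun x _ => ?_
  rw [mul_comm x j, mul_comm x k]

variable (S : Parts p z V K) (hcen : V ≤ Subgroup.center G)

include S hcen in
theorem bigF_apply (ω : V → ℂ) (j k : ZMod p) {i : ZMod p} (hi : i ≠ 0) (v : V) :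
    bigF z ω j k (z ^ i.val * (v : G)) = ∑ a ∈ H30.conjExps p z, fdiff ω j k (a * i) v := by
  classical
  obtain ⟨w, hw⟩ := S.exists_power
  have hconj : ∀ x : G, x * (z ^ i.val * (v : G)) * x⁻¹ = x * z ^ i.val * x⁻¹ * (v : G) := fun x => by
    rw [mul_assoc x (z ^ i.val * (v : G)), mul_assoc (z ^ i.val),
      ← Subgroup.mem_center_iff.1 (hcen v.2) x⁻¹]
    group
  have hinner : ∀ x : G, (∑ i' : ZMod p, ∑ v' : V,
      if x * (z ^ i.val * (v : G)) * x⁻¹ = z ^ i'.val * (v' : G) then fdiff ω j k i' v' else 0) =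
      ∑ a ∈ H30.conjExps p z, if x * z * x⁻¹ = z ^ a.val then fdiff ω j k (a * i) v else 0 := by
    intro x
    have hchar : ∀ (i' : ZMod p) (v' : V),
        x * (z ^ i.val * (v : G)) * x⁻¹ = z ^ i'.val * (v' : G) ↔
          x * z * x⁻¹ = z ^ (i' * i⁻¹).val ∧ v' = v := by
      intro i' v'
      constructor
      · intro e
        have h1 := congrArg (· ^ w) e
        simp only [conj_pow, hw] at h1
        refine ⟨?_, ?_⟩
        · have h2 := congrArg (· ^ (i⁻¹).val) h1
          simp only [conj_pow, pow_val_mul S.ord, mul_inv_cancel₀ hi, ZMod.val_one, pow_one] at h2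
          exact h2
        · rw [hconj, h1] at e
          exact Subtype.ext (mul_left_cancel e).symm
      · rintro ⟨e, rfl⟩
        rw [hconj]
        congr 1
        rw [← conj_pow, e, pow_val_mul S.ord, inv_mul_cancel_right₀ hi]
    by_cases hx : ∃ a : ZMod p, x * z * x⁻¹ = z ^ a.val
    · obtain ⟨a, ha⟩ := hx
      have haC : a ∈ H30.conjExps p z := S.mem_conjExps.2 ⟨x, ha⟩
      rw [Finset.sum_eq_single_of_mem (a * i) (Finset.mem_univ _),
        Finset.sum_eq_single_of_mem v (Finset.mem_univ _), Finset.sum_eq_single_of_mem a haC,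
        if_pos ha, if_pos ((hchar _ _).2 ⟨by rw [mul_inv_cancel_right₀ hi, ha], rfl⟩)]
      · intro b _ hb
        rw [if_neg]
        exact fun e => hb ((zpow_val_eq_iff S.ord).1 (e.symm.trans ha))
      · intro v' _ hv'
        rw [if_neg]
        exact fun e => hv' ((hchar _ _).1 e).2
      · intro i' _ hi'
        refine Finset.sum_eq_zero fun v' _ => if_neg fun e => hi' ?_
        have h1 := (zpow_val_eq_iff S.ord).1 (((hchar _ _).1 e).1.symm.trans ha)
        rw [← h1, inv_mul_cancel_right₀ hi]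
    · push Not at hx
      rw [Finset.sum_eq_zero fun i' _ => Finset.sum_eq_zero fun v' _ =>
        if_neg fun e => hx _ ((hchar _ _).1 e).1, Finset.sum_eq_zero fun a _ => if_neg (hx a)]
  simp only [bigF]
  rw [Finset.sum_congr rfl fun x _ => hinner x, Finset.sum_comm, Finset.mul_sum]
  refine Finset.sum_congr rfl fun a ha => ?_
  rw [← Finset.sum_filter, Finset.sum_const, nsmul_eq_mul, ← mul_assoc]
  have hcard : (Finset.univ.filter fun x : G => x * z * x⁻¹ = z ^ a.val).card = p * Nat.card V := by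
    rw [← S.card_fiber ha, Nat.card_eq_fintype_card, Fintype.card_subtype]
  rw [hcard, inv_mul_cancel₀, one_mul]
  exact Nat.cast_ne_zero.2 (Nat.mul_ne_zero hp.out.ne_zero Nat.card_pos.ne')

include S in
theorem bigF_eq_zero (ω : V → ℂ) (j k : ZMod p) {g : G} (hg : ¬ p ∣ orderOf g) :
    bigF z ω j k g = 0 := by
  classical
  simp only [bigF]
  rw [Finset.sum_eq_zero, mul_zero]
  refine fun x _ => Finset.sum_eq_zero fun i _ => Finset.sum_eq_zero fun v _ => ?_
  split_ifs with e
  · rcases eq_or_ne i 0 with rfl | hi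
    · simp [fdiff]
    · exfalso
      refine hg ?_
      have h := (S.orderOf_dvd_iff i v).2 hi
      rwa [← e, ← MulAut.conj_apply, MulEquiv.orderOf_eq] at h
  · rfl

include S hcen in
theorem norm_bigF (ω : V → ℂ) (hω : ∀ v, ω v * conj (ω v) = 1) (j k : ZMod p) :
    Cfsg.classInner (bigF z ω j k) (bigF z ω j k) =
      ∑ a ∈ H30.conjExps p z, (((if a * j = j then 1 else 0) - (if a * j = k then 1 else 0) -
        (if a * k = j then 1 else 0) + (if a * k = k then 1 else 0) : ℤ) : ℂ) := by
  classical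
  rw [classInner_bigF _ (bigF_isClassFunction ω j k)]
  have h : ∀ (i : ZMod p) (v : V), bigF z ω j k (z ^ i.val * (v : G)) * conj (fdiff ω j k i v) =
      ∑ a ∈ H30.conjExps p z, (rt (i * (a * j - j)) - rt (i * (a * j - k)) - rt (i * (a * k - j))
        + rt (i * (a * k - k))) := by
    intro i v
    rcases eq_or_ne i 0 with rfl | hi
    · rw [show fdiff ω j k 0 v = 0 by simp [fdiff], map_zero, mul_zero, Finset.sum_eq_zero]
      intro a _
      simp [rt_zero]
    · rw [bigF_apply S hcen ω j k hi, Finset.sum_mul]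
      refine Finset.sum_congr rfl fun a _ => ?_
      have e : ∀ s t : ZMod p, rt (i * (a * s - t)) = rt (a * i * s) * rt (-(i * t)) := fun s t => by
        rw [← rt_add]; congr 1; ring
      rw [fdiff, fdiff, map_mul, map_sub, conj_rt, conj_rt, e, e, e, e]
      linear_combination ((rt (a * i * j) - rt (a * i * k)) *
        (rt (-(i * j)) - rt (-(i * k)))) * hω v
  simp only [h, Finset.sum_const, Finset.card_univ, nsmul_eq_mul]
  rw [← Finset.mul_sum, Finset.sum_comm, ← Nat.card_eq_fintype_card, ← mul_assoc, Finset.mul_sum]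
  refine Finset.sum_congr rfl fun a _ => ?_
  simp only [Finset.sum_add_distrib, Finset.sum_sub_distrib, sum_rt, sub_eq_zero]
  have hV : (Nat.card V : ℂ) ≠ 0 := Nat.cast_ne_zero.2 Nat.card_pos.ne'
  have hp0 : (p : ℂ) ≠ 0 := p_ne_zero
  push_cast
  field_simp
  split_ifs <;> ring

/-- Bessel's inequality for a family of irreducible characters. -/
theorem bessel_irr {F : G → ℂ} (hF : Cfsg.IsClassFunction G F)
    (s : Finset (Cfsg.IrrCharacter G)) (y : Cfsg.IrrCharacter G → ℝ)
    (hy : ∀ θ ∈ s, Cfsg.classInner θ.1 F = (y θ : ℂ)) :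
    ∑ θ ∈ s, y θ ^ 2 ≤ (Cfsg.classInner F F).re := by
  classical
  rw [H26.classInner_eq_sum F F hF, Complex.re_sum]
  refine le_trans (le_of_eq (Finset.sum_congr rfl fun θ hθ => ?_))
    (Finset.sum_le_sum_of_subset_of_nonneg (Finset.subset_univ s) fun θ _ _ => ?_)
  · rw [H26.classInner_comm θ.1 F, hy θ hθ, Complex.conj_ofReal, Complex.conj_ofReal,
      ← Complex.ofReal_mul, Complex.ofReal_re, sq]
  · rw [Complex.mul_conj, Complex.ofReal_re]
    exact Complex.normSq_nonneg _

/-- Exponents prime to `|G|` with prescribed residues. -/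
theorem exists_exponent (hord : orderOf z = p) (hsq : ¬ p ^ 2 ∣ Nat.card G) {a : ZMod p}
    (ha : a ≠ 0) {b : ℕ} (hb : b.Coprime (Nat.card G / p)) :
    ∃ r : ℕ, r.Coprime (Nat.card G) ∧ (r : ZMod p) = a ∧ r ≡ b [MOD Nat.card G / p] := by
  have hd : p ∣ Nat.card G := hord ▸ orderOf_dvd_natCard z
  set m := Nat.card G / p with hm
  have hG : Nat.card G = p * m := (Nat.mul_div_cancel' hd).symm
  have hpm : p.Coprime m := by
    refine (hp.out.coprime_iff_not_dvd).2 fun h => hsq ?_
    rw [hG, pow_two]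
    exact mul_dvd_mul_left p h
  obtain ⟨r, hr1, hr2⟩ := Nat.chineseRemainder hpm a.val b
  have hra : (r : ZMod p) = a := by
    rw [(ZMod.natCast_eq_natCast_iff _ _ _).2 hr1, ZMod.natCast_zmod_val]
  refine ⟨r, ?_, hra, hr2⟩
  rw [hG, Nat.coprime_mul_iff_right]
  refine ⟨((hp.out.coprime_iff_not_dvd).2 fun h => ha ?_).symm, ?_⟩
  · rw [← hra]
    exact (CharP.cast_eq_zero_iff (ZMod p) p r).2 h
  · rw [Nat.coprime_iff_gcd_eq_one, Nat.ModEq.gcd_eq hr2]
    exact hb

theorem pow_eq_of_modEq (hord : orderOf z = p) {g : G} (hg : ¬ p ∣ orderOf g) {r b : ℕ}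
    (h : r ≡ b [MOD Nat.card G / p]) : g ^ r = g ^ b := by
  refine pow_eq_pow_iff_modEq.2 (h.of_dvd ?_)
  have hd : p ∣ Nat.card G := hord ▸ orderOf_dvd_natCard z
  refine Nat.Coprime.dvd_of_dvd_mul_left ((hp.out.coprime_iff_not_dvd).2 hg).symm ?_
  rw [Nat.mul_div_cancel' hd]
  exact orderOf_dvd_natCard g

variable {χ : Cfsg.IrrCharacter G} {d : ℕ} {O : ValuationSubring ℂ}
  {A : G →* Matrix (Fin d) (Fin d) ℂ}

theorem Hyp.d_pos (H : Hyp p z χ) (L : Lat p χ.1 O A) : 0 < d := by
  have := H.d_eq L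
  have := H.five
  omega

/-- The central character. -/
theorem exists_omega (H : Hyp p z χ) (L : Lat p χ.1 O A) (hcen : V ≤ Subgroup.center G) :
    ∃ ω : V →* ℂ, (∀ v : V, A (v : G) = ω v • 1) ∧ (∀ v, ω v * conj (ω v) = 1) ∧
      (∀ v, ω v = 1 → v = 1) ∧ ∀ (g : G) (v : V), χ.1 (g * v) = ω v * χ.1 g := by
  have hsc : ∀ v : V, ∃ c : ℂ, A (v : G) = c • 1 := fun v => L.schur _ fun g => by
    show A _ * A g = A g * A _
    rw [← map_mul, ← map_mul, Subgroup.mem_center_iff.1 (hcen v.2) g]
  choose c hc using hsc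
  have : Nonempty (Fin d) := ⟨⟨0, H.d_pos L⟩⟩
  have hinj : ∀ a b : ℂ, a • (1 : Matrix (Fin d) (Fin d) ℂ) = b • 1 → a = b := fun a b h => by
    have := congrFun (congrFun h ⟨0, H.d_pos L⟩) ⟨0, H.d_pos L⟩
    simpa using this
  let ω : V →* ℂ :=
    { toFun := c
      map_one' := hinj _ _ (by rw [← hc, Subgroup.coe_one, map_one, one_smul])
      map_mul' := fun a b => hinj _ _ (by
        rw [← hc, Subgroup.coe_mul, map_mul, hc, hc, smul_mul_smul_comm, one_mul]) }
  refine ⟨ω, hc, fun v => ?_, fun v hv => ?_, fun g v => ?_⟩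
  · have hv : ω v ^ Fintype.card V = 1 := by rw [← map_pow, pow_card_eq_one, map_one]
    rw [Complex.mul_conj, Complex.normSq_eq_norm_sq,
      Complex.norm_eq_one_of_pow_eq_one hv Fintype.card_ne_zero]
    simp
  · refine Subtype.ext (H.eq_one_of_apply L ?_)
    rw [hc v, show c v = ω v from rfl, hv, one_smul]
  · rw [← L.tr, ← L.tr, map_mul, hc, mul_smul_comm, mul_one, Matrix.trace_smul, smul_eq_mul]
    rfl

/-- The eigenvalues of `z`, and the automiser of `z`. -/
theorem Hyp.shape (H : Hyp p z χ) (L : Lat p χ.1 O A) (S : Parts p z V K) :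
    ∃ k : ZMod p, k ≠ 0 ∧ (∀ j, mult z A j = if j = k ∨ j = -k then 0 else 1) ∧
      H30.conjExps p z = {1, -1} := by
  classical
  have hcen := H.V_le_center L S
  obtain ⟨ω, hωA, hω, -, hωχ⟩ := exists_omega H L hcen
  set n : ZMod p → ℕ := mult z A with hn
  set C := H30.conjExps p z with hC
  set T : Finset (ZMod p) := Finset.univ.erase 0 with hT
  have hTm : ∀ a, a ∈ T ↔ a ≠ 0 := fun a => by simp [hT]
  have hTc : T.card = p - 1 := by
    rw [hT, Finset.card_erase_of_mem (Finset.mem_univ _), Finset.card_univ, ZMod.card]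
  have h5 := H.five
  have hd := H.d_eq L
  -- the conjugates of the character
  have hgal : ∀ a : ZMod p, a ≠ 0 → ∃ θ : Cfsg.IrrCharacter G,
      (∀ (i : ZMod p) (v : V), θ.1 (z ^ i.val * (v : G)) = ω v * θ.1 (z ^ i.val)) ∧
      ∀ j, cmult z θ.1 j = (n (a * j) : ℂ) := by
    intro a ha
    obtain ⟨r, hr, hra, hr1⟩ := exists_exponent H.ord H.sq (inv_ne_zero ha) (b := 1)
      (Nat.coprime_one_left _)
    refine ⟨H45.galIrr hr χ, fun i v => ?_, fun j => ?_⟩
    · show χ.1 ((z ^ i.val * (v : G)) ^ r) = ω v * χ.1 ((z ^ i.val) ^ r)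
      rw [((S.commute v).pow_left i.val).mul_pow]
      rw [pow_eq_of_modEq (g := (v : G)) H.ord (fun h => S.ndvd_V (h.trans
          (by rw [Subgroup.orderOf_coe]; exact orderOf_dvd_natCard v))) hr1, pow_one, hωχ]
    · show cmult z (fun g => χ.1 (g ^ r)) j = _
      rw [hn, mult_eq H.ord L.tr, cmult]
      congr 1
      refine Fintype.sum_equiv (Equiv.mulLeft₀ a⁻¹ (inv_ne_zero ha)) _ _ fun i => ?_
      rw [Equiv.mulLeft₀_apply]
      congr 1
      · congr 1
        field_simp
      · show χ.1 ((z ^ i.val) ^ r) = _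
        rw [← pow_mul, mul_comm, pow_mul, ← pow_val_natCast H.ord r, pow_val_mul H.ord, hra]
  choose θ hθω hθn using hgal
  set U : Finset (ZMod p) := T.filter fun a => ∀ j, n (a * j) = n j with hU
  have hU1 : (1 : ZMod p) ∈ U := by simp [hU, hTm]
  have hUpos : 0 < U.card := Finset.card_pos.2 ⟨1, hU1⟩
  have hUmul : ∀ a ∈ U, ∀ b ∈ U, a * b ∈ U := by
    intro a ha b hb
    simp only [hU, Finset.mem_filter, hTm] at ha hb ⊢
    exact ⟨mul_ne_zero ha.1 hb.1, fun j => by rw [mul_assoc, ha.2, hb.2]⟩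
  have hCU : C ⊆ U := by
    intro a ha
    obtain ⟨g, hg⟩ := S.mem_conjExps.1 ha
    simp only [hU, Finset.mem_filter, hTm]
    exact ⟨S.ne_zero_of_mem ha, fun j => mult_conj H.ord (S.ne_zero_of_mem ha) hg j⟩
  -- the inequality
  have key : ∀ (j k : ZMod p), ∑ a ∈ T, ((n (a * j) : ℤ) - n (a * k)) ^ 2 ≤
      U.card * ∑ a ∈ C, ((if a * j = j then (1 : ℤ) else 0) - (if a * j = k then 1 else 0) -
        (if a * k = j then 1 else 0) + (if a * k = k then 1 else 0)) := by
    intro j k
    let na : ZMod p → (ZMod p → ℕ) := fun a i => n (a * i)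
    let φ : (ZMod p → ℕ) → ℤ := fun f => ((f j : ℤ) - f k) ^ 2
    have hfib : ∀ b ∈ T, (T.filter fun a => na a = na b).card = U.card := by
      intro b hb
      rw [hTm] at hb
      refine Finset.card_nbij' (fun a => a * b⁻¹) (fun c => c * b) ?_ ?_ ?_ ?_
      · intro a ha
        simp only [Finset.coe_filter, Set.mem_setOf_eq, hTm] at ha
        simp only [hU, Finset.coe_filter, Set.mem_setOf_eq, hTm]
        refine ⟨mul_ne_zero ha.1 (inv_ne_zero hb), fun i => ?_⟩
        have := congrFun ha.2 (b⁻¹ * i)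
        simp only [na] at this
        rwa [mul_inv_cancel_left₀ hb, ← mul_assoc] at this
      · intro c hc
        simp only [hU, Finset.coe_filter, Set.mem_setOf_eq, hTm] at hc
        simp only [Finset.coe_filter, Set.mem_setOf_eq, hTm]
        refine ⟨mul_ne_zero hc.1 hb, funext fun i => ?_⟩
        simp only [na]
        rw [mul_assoc, hc.2]
      · intro a _
        exact inv_mul_cancel_right₀ hb a
      · intro c _
        exact mul_inv_cancel_right₀ hb c
    have h1 : ∑ a ∈ T, ((n (a * j) : ℤ) - n (a * k)) ^ 2 =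
        U.card * ∑ f ∈ T.image na, φ f := by
      rw [show ∑ a ∈ T, ((n (a * j) : ℤ) - n (a * k)) ^ 2 = ∑ a ∈ T, φ (na a) from rfl,
        Finset.sum_comp φ na, Finset.mul_sum]
      refine Finset.sum_congr rfl fun f hf => ?_
      obtain ⟨b, hb, rfl⟩ := Finset.mem_image.1 hf
      rw [hfib b hb, nsmul_eq_mul]
    rw [h1]
    refine mul_le_mul_of_nonneg_left ?_ (Int.natCast_nonneg _)
    -- one character for each function
    have hrep : ∀ f ∈ T.image na, ∃ ψ : Cfsg.IrrCharacter G,
        (∀ (i : ZMod p) (v : V), ψ.1 (z ^ i.val * (v : G)) = ω v * ψ.1 (z ^ i.val)) ∧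
        ∀ i, cmult z ψ.1 i = (f i : ℂ) := by
      intro f hf
      obtain ⟨b, hb, rfl⟩ := Finset.mem_image.1 hf
      exact ⟨θ b ((hTm b).1 hb), hθω b _, fun i => hθn b _ i⟩
    choose ψ hψω hψ using hrep
    have hinj : ∀ f hf f' hf', ψ f hf = ψ f' hf' → f = f' := fun f hf f' hf' e =>
      funext fun i => by
        have h := hψ f hf i
        rw [e, hψ f' hf' i] at h
        exact_mod_cast h.symm
    set s : Finset (Cfsg.IrrCharacter G) :=
      (T.image na).attach.image fun f => ψ f.1 f.2 with hs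
    let y : Cfsg.IrrCharacter G → ℝ := fun ξ => ((cmult z ξ.1 j - cmult z ξ.1 k)).re
    have hb := bessel_irr (bigF_isClassFunction (z := z) (fun v => ω v) j k) s y (fun ξ hξ => by
      obtain ⟨f, -, rfl⟩ := Finset.mem_image.1 hξ
      rw [classInner_bigF_central _ (H26.isClassFunction_of_isCharacter
        (H26.irr_isCharacter _)) _ hω (hψω f.1 f.2)]
      simp only [y, hψ f.1 f.2]
      push_cast
      simp)
    rw [norm_bigF S hcen _ hω, hs, Finset.sum_image fun a _ b _ e =>
      Subtype.ext (hinj _ a.2 _ b.2 e)] at hb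
    simp only [y, hψ] at hb
    rw [← Finset.sum_attach (T.image na) φ]
    have : ((∑ x ∈ (T.image na).attach, φ x.1 : ℤ) : ℝ) ≤ ((∑ a ∈ C,
        ((if a * j = j then (1 : ℤ) else 0) - (if a * j = k then 1 else 0) -
          (if a * k = j then 1 else 0) + (if a * k = k then 1 else 0)) : ℤ) : ℝ) := by
      refine le_trans (le_of_eq ?_) (hb.trans (le_of_eq ?_))
      · rw [Int.cast_sum]
        exact Finset.sum_congr rfl fun x _ => by simp [φ]
      · rw [Complex.re_sum, Int.cast_sum]
        exact Finset.sum_congr rfl fun a _ => by rw [Complex.intCast_re]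
    exact_mod_cast this
  have key2 : ∀ b ∈ T, ∑ a ∈ T, ((n a : ℤ) - n (a * b)) ^ 2 ≤ 2 * U.card := by
    intro b hb
    rw [hTm] at hb
    have h := key 1 b
    simp only [mul_one] at h
    refine h.trans ?_
    rw [mul_comm (2 : ℤ)]
    refine mul_le_mul_of_nonneg_left ?_ (Int.natCast_nonneg _)
    calc ∑ a ∈ C, ((if a = 1 then (1 : ℤ) else 0) - (if a = b then 1 else 0) -
          (if a * b = 1 then 1 else 0) + (if a * b = b then 1 else 0))
        ≤ ∑ a ∈ C, (if a = 1 then (2 : ℤ) else 0) := by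
          refine Finset.sum_le_sum fun a _ => ?_
          by_cases ha : a = 1
          · subst ha
            simp only [one_mul, if_true]
            split_ifs <;> norm_num
          · rw [if_neg ha, if_neg ha, if_neg (show ¬ a * b = b from fun e => ha
              (mul_right_cancel₀ hb (e.trans (one_mul b).symm)))]
            split_ifs <;> norm_num
      _ ≤ 2 := by rw [Finset.sum_ite_eq']; split_ifs <;> norm_num
  -- the values
  have hrange : ∀ a ∈ T, ∀ b ∈ T, n a ≤ n b + 1 := by
    intro a ha b hb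
    by_contra hlt
    rw [hTm] at ha hb
    have h := key2 (b * a⁻¹) ((hTm _).2 (mul_ne_zero hb (inv_ne_zero ha)))
    have hsub : U.image (fun c => c * a) ⊆ T := by
      intro c hc
      obtain ⟨c', hc', rfl⟩ := Finset.mem_image.1 hc
      simp only [hU, Finset.mem_filter, hTm] at hc'
      exact (hTm _).2 (mul_ne_zero hc'.1 ha)
    have h2 : (4 * U.card : ℤ) ≤ ∑ c ∈ U.image (fun c => c * a),
        ((n c : ℤ) - n (c * (b * a⁻¹))) ^ 2 := by
      rw [Finset.sum_image fun x _ y _ e => mul_right_cancel₀ ha e]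
      calc (4 * U.card : ℤ) = ∑ _c ∈ U, (4 : ℤ) := by
            rw [Finset.sum_const, nsmul_eq_mul, mul_comm]
        _ ≤ _ := Finset.sum_le_sum fun c hc => by
          simp only [hU, Finset.mem_filter] at hc
          rw [show c * a * (b * a⁻¹) = c * b by field_simp, hc.2, hc.2]
          nlinarith
    have h3 := h2.trans ((Finset.sum_le_sum_of_subset_of_nonneg hsub
      fun c _ _ => sq_nonneg _).trans h)
    omega
  have hsum : ∑ a ∈ T, n a + n 0 = d := by
    rw [hT, Finset.sum_erase_add _ _ (Finset.mem_univ _)]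
    exact sum_mult H.ord
  obtain ⟨a₀, ha₀, hna₀⟩ : ∃ a ∈ T, n a = 0 := by
    by_contra hc
    push Not at hc
    have : (p - 1 : ℕ) ≤ ∑ a ∈ T, n a := by
      rw [← hTc, Finset.card_eq_sum_ones]
      exact Finset.sum_le_sum fun a ha => Nat.one_le_iff_ne_zero.2 (hc a ha)
    omega
  have hle1 : ∀ a ∈ T, n a ≤ 1 := fun a ha => by have := hrange a ha a₀ ha₀; omega
  set Oset := T.filter fun a => n a = 1 with hO
  set Qset := T.filter fun a => n a = 0 with hQ
  have hsplit : Oset.card + Qset.card = p - 1 := by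
    rw [← hTc, ← Finset.card_union_of_disjoint]
    · congr 1
      ext a
      simp only [hO, hQ, Finset.mem_union, Finset.mem_filter]
      constructor
      · rintro (h | h) <;> exact h.1
      · intro ha
        have := hle1 a ha
        rcases Nat.eq_zero_or_pos (n a) with h | h
        · exact Or.inr ⟨ha, h⟩
        · exact Or.inl ⟨ha, by omega⟩
    · rw [Finset.disjoint_left]
      intro a ha hb
      simp only [hO, hQ, Finset.mem_filter] at ha hb
      omega
  have hOsum : ∑ a ∈ T, n a = Oset.card := by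
    rw [hO, Finset.card_filter]
    refine Finset.sum_congr rfl fun a ha => ?_
    have := hle1 a ha
    split_ifs <;> omega
  have hD : (eSupp z A : Finset (ZMod p)).card ≤ Oset.card + 1 := by
    have hsub : (eSupp z A : Finset (ZMod p)) ⊆ insert 0 Oset := by
      intro a ha
      rcases eq_or_ne a 0 with rfl | h0
      · exact Finset.mem_insert_self _ _
      · refine Finset.mem_insert_of_mem ?_
        have h1 := hle1 a ((hTm a).2 h0)
        have h2 := (mult_pos_iff H.ord).2 ha
        simp only [hO, Finset.mem_filter, hTm]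
        exact ⟨h0, by rw [hn] at h1 ⊢; omega⟩
    exact (Finset.card_le_card hsub).trans (Finset.card_insert_le _ _)
  have hhalf : p - 1 ≤ 2 * Oset.card := by have := H.card_supp L; omega
  have hcoset : ∀ (P : Finset (ZMod p)) (c : ℕ), P = T.filter (fun a => n a = c) → P.Nonempty →
      U.card ≤ P.card := by
    intro P c hP hne
    obtain ⟨a, ha⟩ := hne
    simp only [hP, Finset.mem_filter, hTm] at ha
    rw [← Finset.card_image_of_injective U (mul_left_injective₀ ha.1)]
    refine Finset.card_le_card fun b hb => ?_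
    obtain ⟨u, hu, rfl⟩ := Finset.mem_image.1 hb
    simp only [hU, Finset.mem_filter, hTm] at hu
    simp only [hP, Finset.mem_filter, hTm]
    exact ⟨mul_ne_zero hu.1 ha.1, by rw [hu.2]; exact ha.2⟩
  have hQU : U.card ≤ Qset.card := hcoset _ 0 hQ ⟨a₀, by simp [hQ, ha₀, hna₀]⟩
  have hOU : U.card ≤ Oset.card := hcoset _ 1 hO (Finset.card_pos.1 (by omega))
  have hprod : Oset.card * Qset.card ≤ U.card * (p - 1 - U.card) := by
    have hb1 : ∑ b ∈ T, ∑ a ∈ T, ((n a : ℤ) - n (a * b)) ^ 2 =
        2 * (Oset.card : ℤ) * Qset.card := by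
      rw [Finset.sum_comm]
      have hin : ∀ a ∈ T, ∑ b ∈ T, ((n a : ℤ) - n (a * b)) ^ 2 =
          ∑ c ∈ T, ((n a : ℤ) - n c) ^ 2 := by
        intro a ha
        rw [hTm] at ha
        refine Finset.sum_nbij' (fun b => a * b) (fun c => a⁻¹ * c) ?_ ?_ ?_ ?_ (fun _ _ => rfl)
        · intro b hb
          simp only [Finset.mem_coe, hTm] at hb ⊢
          exact mul_ne_zero ha hb
        · intro c hc
          simp only [Finset.mem_coe, hTm] at hc ⊢
          exact mul_ne_zero (inv_ne_zero ha) hc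
        · intro b _; exact inv_mul_cancel_left₀ ha b
        · intro c _; exact mul_inv_cancel_left₀ ha c
      rw [Finset.sum_congr rfl hin]
      have hpt : ∀ a ∈ T, ∀ c ∈ T, ((n a : ℤ) - n c) ^ 2 =
          (if n a = 1 then (1 : ℤ) else 0) * (if n c = 0 then 1 else 0) +
          (if n a = 0 then (1 : ℤ) else 0) * (if n c = 1 then 1 else 0) := by
        intro a ha c hc
        have h1 := hle1 a ha
        have h2 := hle1 c hc
        interval_cases n a <;> interval_cases n c <;> simp
      rw [Finset.sum_congr rfl fun a ha => Finset.sum_congr rfl (hpt a ha)]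
      simp only [Finset.sum_add_distrib, ← Finset.mul_sum, ← Finset.sum_mul, Finset.sum_boole,
        ← hO, ← hQ]
      ring
    have hb2 : ∑ b ∈ T, ∑ a ∈ T, ((n a : ℤ) - n (a * b)) ^ 2 ≤
        ((p - 1 - U.card : ℕ) : ℤ) * (2 * U.card) := by
      have hUT : U ⊆ T := Finset.filter_subset _ _
      rw [← Finset.sum_sdiff hUT, Finset.sum_eq_zero (s := U) fun b hb =>
        Finset.sum_eq_zero fun a _ => by
          simp only [hU, Finset.mem_filter] at hb
          rw [mul_comm, hb.2, sub_self, zero_pow two_ne_zero], add_zero]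
      refine (Finset.sum_le_sum fun b hb => key2 b (Finset.mem_sdiff.1 hb).1).trans (le_of_eq ?_)
      rw [Finset.sum_const, Finset.card_sdiff_of_subset hUT, hTc, nsmul_eq_mul]
    rw [hb1] at hb2
    have h' : ((2 * (Oset.card * Qset.card) : ℕ) : ℤ) ≤
        ((2 * (U.card * (p - 1 - U.card)) : ℕ) : ℤ) := by push_cast; linarith
    have := Int.ofNat_le.1 h'
    omega
  have hq : Qset.card = U.card := by
    obtain ⟨x, hx⟩ := Nat.exists_eq_add_of_le hOU
    obtain ⟨y, hy⟩ := Nat.exists_eq_add_of_le hQU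
    rw [show p - 1 - U.card = U.card + x + y by omega, hx, hy] at hprod
    have hxy : x * y = 0 := by nlinarith
    rcases mul_eq_zero.1 hxy with h | h <;> omega
  have hn0 : n 0 = U.card - 1 := by omega
  -- the pairs with zero
  have hz0 := key 0 1
  simp only [mul_zero, mul_one, if_true, zero_ne_one, if_false, sub_zero] at hz0
  have hrhs : ∑ a ∈ C, ((1 : ℤ) - (if a = 0 then 1 else 0) + (if a = 1 then 1 else 0)) =
      C.card + 1 := by
    rw [Finset.sum_add_distrib, Finset.sum_ite_eq', if_pos S.one_mem_conjExps,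
      Finset.sum_congr rfl fun a ha => by rw [if_neg (S.ne_zero_of_mem ha), sub_zero]]
    simp
  rw [hrhs] at hz0
  have hlhs : ∑ a ∈ T, ((n 0 : ℤ) - n a) ^ 2 =
      Oset.card * ((n 0 : ℤ) - 1) ^ 2 + Qset.card * (n 0 : ℤ) ^ 2 := by
    have hpt : ∀ a ∈ T, ((n 0 : ℤ) - n a) ^ 2 = (if n a = 1 then ((n 0 : ℤ) - 1) ^ 2 else 0) +
        (if n a = 0 then (n 0 : ℤ) ^ 2 else 0) := by
      intro a ha
      have h1 := hle1 a ha
      interval_cases n a <;> simp
    rw [Finset.sum_congr rfl hpt, Finset.sum_add_distrib, ← Finset.sum_filter, ← Finset.sum_filter,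
      Finset.sum_const, Finset.sum_const, nsmul_eq_mul, nsmul_eq_mul, ← hO, ← hQ]
  rw [hlhs, hq] at hz0
  have hCle := Finset.card_le_card hCU
  have hu2 : U.card = 2 := by
    rcases Nat.lt_or_ge U.card 4 with hlt | hge
    · interval_cases hu : U.card
      · exfalso
        rw [hn0] at hz0
        simp at hz0
        omega
      · rfl
      · exfalso
        rw [hn0] at hz0
        norm_num at hz0
        omega
    · exfalso
      obtain ⟨w, hw⟩ := Nat.exists_eq_add_of_le hge
      have h1 : (n 0 : ℤ) = 3 + w := by omega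
      rw [h1, hw] at hz0
      push_cast at hz0
      have h2 : (C.card : ℤ) ≤ 4 + w := by omega
      have h3 : (0 : ℤ) ≤ (Oset.card : ℤ) * (3 + (w : ℤ) - 1) ^ 2 :=
        mul_nonneg (Int.natCast_nonneg _) (sq_nonneg _)
      nlinarith
  rw [hu2] at hq hn0
  obtain ⟨x, y, hxy, hUeq⟩ := Finset.card_eq_two.1 hu2
  obtain ⟨w, hwU, hw1⟩ : ∃ w ∈ U, w ≠ 1 := by
    rw [hUeq] at hU1 ⊢
    rcases Finset.mem_insert.1 hU1 with h | h
    · exact ⟨y, by simp, fun e => hxy (h.symm.trans e.symm)⟩
    · rw [Finset.mem_singleton] at h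
      exact ⟨x, by simp, fun e => hxy (e.trans h)⟩
  have hU2 : U = {1, w} := by
    refine (Finset.eq_of_subset_of_card_le ?_ ?_).symm
    · exact Finset.insert_subset hU1 (Finset.singleton_subset_iff.2 hwU)
    · rw [hu2, Finset.card_insert_of_notMem (by simpa using hw1.symm), Finset.card_singleton]
  have hw0 : w ≠ 0 := by simp only [hU, Finset.mem_filter, hTm] at hwU; exact hwU.1
  have hww : w = -1 := by
    have h := hUmul w hwU w hwU
    rw [hU2, Finset.mem_insert, Finset.mem_singleton] at h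
    rcases h with h | h
    · rcases mul_self_eq_one_iff.1 h with h | h
      · exact absurd h hw1
      · exact h
    · exact absurd ((mul_eq_left₀ hw0).1 h) hw1
  subst hww
  rw [hTm] at ha₀
  have hQeq : Qset = {a₀, -a₀} := by
    refine (Finset.eq_of_subset_of_card_le ?_ ?_).symm
    · intro c hc
      simp only [hU, Finset.mem_filter, hTm] at hwU
      simp only [hQ, Finset.mem_filter, hTm, Finset.mem_insert, Finset.mem_singleton] at hc ⊢
      rcases hc with rfl | rfl
      · exact ⟨ha₀, hna₀⟩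
      · exact ⟨neg_ne_zero.2 ha₀, by rw [← neg_one_mul, hwU.2]; exact hna₀⟩
    · rw [hq, Finset.card_insert_of_notMem, Finset.card_singleton]
      rw [Finset.mem_singleton, eq_neg_iff_add_eq_zero, ← two_mul, mul_eq_zero]
      rintro (h | h)
      · have h2 : ((2 : ℕ) : ZMod p) = 0 := by exact_mod_cast h
        have := Nat.le_of_dvd two_pos ((CharP.cast_eq_zero_iff (ZMod p) p 2).1 h2)
        omega
      · exact ha₀ h
  refine ⟨a₀, ha₀, fun j => ?_, ?_⟩
  · rcases eq_or_ne j 0 with rfl | hj
    · rw [if_neg (by rintro (h | h); exacts [ha₀ h.symm, ha₀ (neg_eq_zero.1 h.symm)])]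
      exact hn0
    · have h1 := hle1 j ((hTm j).2 hj)
      split_ifs with hk
      · have : j ∈ Qset := by
          rw [hQeq, Finset.mem_insert, Finset.mem_singleton]; exact hk
        simp only [hQ, Finset.mem_filter] at this
        exact this.2
      · have h2 : j ∉ Qset := by
          rw [hQeq, Finset.mem_insert, Finset.mem_singleton]; exact hk
        simp only [hQ, Finset.mem_filter, hTm, not_and] at h2
        have := h2 hj
        show n j = 1
        omega
  · -- the automiser
    rw [← hU2]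
    refine Finset.eq_of_subset_of_card_le hCU ?_
    by_contra hlt
    have hC1 : C = {1} := by
      refine (Finset.eq_of_subset_of_card_le (Finset.singleton_subset_iff.2 S.one_mem_conjExps) ?_).symm
      rw [Finset.card_singleton, ← hC]
      omega
    have hc : ∀ g ∈ Subgroup.normalizer ((Subgroup.zpowers z : Subgroup G) : Set G),
        Commute (A z) (A g) := by
      intro g hg
      obtain ⟨b, hb⟩ := S.exists_autExp hg
      have hbC := S.mem_conjExps.2 ⟨g, hb⟩
      rw [← hC, hC1, Finset.mem_singleton] at hbC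
      rw [hbC, ZMod.val_one, pow_one, mul_inv_eq_iff_eq_mul] at hb
      show A z * A g = A g * A z
      rw [← map_mul, ← map_mul, hb]
    obtain ⟨c, hcl⟩ := exists_scalar_close H.ord H.sq A L.int L.schur (aeval_eSupp H.ord)
      (L.int z) hc
    obtain ⟨j₁, hj₁, j₂, hj₂, hne⟩ := Finset.one_lt_card.1
      (show 1 < (eSupp z A : Finset (ZMod p)).card by have := H.card_supp L; omega)
    have hev : ∀ j ∈ (eSupp z A : Finset (ZMod p)), O.valuation (c - rt j) *
        O.valuation (rt (1 : ZMod p) - 1) ^ ((eSupp z A : Finset (ZMod p)).card - 1) ≤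
        O.valuation (rt (1 : ZMod p) - 1) ^ (p - 1) := by
      intro j hj
      obtain ⟨u, hu, hzu⟩ := exists_eigvec (A := A) H.ord (j := j) 1
        (by rw [mul_one]; exact mem_eSupp.1 hj)
      exact hcl j hj _ _ hu hzu hzu
    have h2 : O.valuation (rt (1 : ZMod p) - 1) ^
        (1 + ((eSupp z A : Finset (ZMod p)).card - 1)) ≤
        O.valuation (rt (1 : ZMod p) - 1) ^ (p - 1) := by
      rw [pow_add, pow_one]
      have e : O.valuation (rt (1 : ZMod p) - 1) = O.valuation ((c - rt j₁) - (c - rt j₂)) := by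
        rw [← val_rt_sub hne.symm]; congr 1; ring
      refine (mul_le_mul_left (e.le.trans (Valuation.map_sub _ _ _)) _).trans ?_
      rcases max_choice (O.valuation (c - rt j₁)) (O.valuation (c - rt j₂)) with h | h <;> rw [h]
      · exact hev _ hj₁
      · exact hev _ hj₂
    have h3 := le_of_pi_pow_le L.mem h2
    have h4 := card_eSupp_le (A := A) H.ord
    omega

end Cfsg.Agent.H39.SmallDeg
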