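import Mathlib
import Cfsg.Agent.H39.SmallDeg.Norm
import Cfsg.Agent.H63.HalfNorm.Exterior
import Cfsg.Agent.H25.CharValues

/-!
The exterior square of a faithful irreducible character of degree `p - 2` when the centre has odd
order: on `p`-regular elements it is a multiple of a power of the character.
-/

set_option autoImplicit false
set_option linter.unusedSectionVars false

namespace Cfsg.Agent.H39.SmallDeg

open Cfsg.Agent.H31.Defect
open scoped ComplexConjugate

/-- A sum of roots of unity of nearly maximal absolute value: the second elementary symmetric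
function is strictly smaller than the multiple of it. -/
theorem norm_sq_sub_lt {d : ℕ} (hd : 5 ≤ d) (μ : Fin d → ℂ) (hμ : ∀ i, ‖μ i‖ = 1)
    (h1 : (d : ℝ) - 2 ≤ ‖∑ i, μ i‖) (h2 : ‖∑ i, μ i‖ < d) :
    ‖(∑ i, μ i) ^ 2 - ∑ i, μ i ^ 2‖ < ((d : ℝ) - 1) * ‖∑ i, μ i‖ := by
  have hd5 : (5 : ℝ) ≤ d := by exact_mod_cast hd
  set x := ∑ i, μ i with hx
  set X := ‖x‖ with hX
  have hX3 : 3 ≤ X := by linarith
  set u : ℂ := conj x / (X : ℂ) with hu
  have hX0 : (X : ℂ) ≠ 0 := by exact_mod_cast (show X ≠ 0 by linarith)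
  have hu1 : ‖u‖ = 1 := by
    rw [hu, norm_div, Complex.norm_conj, Complex.norm_real, Real.norm_eq_abs,
      abs_of_nonneg (by linarith : (0 : ℝ) ≤ X), div_self (by linarith : X ≠ 0)]
  have hux : u * x = (X : ℂ) := by
    rw [hu, div_mul_eq_mul_div, mul_comm (conj x) x, Complex.mul_conj, Complex.normSq_eq_norm_sq,
      ← hX, sq, Complex.ofReal_mul, mul_div_assoc, div_self hX0, mul_one]
  set α : Fin d → ℂ := fun i => u * μ i with hα
  have hα1 : ∀ i, (α i).re ^ 2 + (α i).im ^ 2 = 1 := fun i => by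
    have h : ‖α i‖ = 1 := by rw [hα, norm_mul, hu1, hμ, one_mul]
    have := Complex.normSq_eq_norm_sq (α i)
    rw [h, Complex.normSq_apply] at this
    linarith
  have hsum : ∑ i, α i = (X : ℂ) := by rw [hα, ← Finset.mul_sum, hux]
  have hre : ∑ i, (α i).re = X := by
    have := congrArg Complex.re hsum
    rwa [Complex.re_sum, Complex.ofReal_re] at this
  have him : ∑ i, (α i).im = 0 := by
    have := congrArg Complex.im hsum
    rwa [Complex.im_sum, Complex.ofReal_im] at this
  have hgoal : ‖x ^ 2 - ∑ i, μ i ^ 2‖ = ‖(X : ℂ) ^ 2 - ∑ i, α i ^ 2‖ := by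
    have e : (X : ℂ) ^ 2 - ∑ i, α i ^ 2 = u ^ 2 * (x ^ 2 - ∑ i, μ i ^ 2) := by
      have e2 : ∑ i, α i ^ 2 = u ^ 2 * ∑ i, μ i ^ 2 := by
        rw [Finset.mul_sum]
        exact Finset.sum_congr rfl fun i _ => mul_pow u (μ i) 2
      rw [e2, ← hux]
      ring
    rw [e, norm_mul, norm_pow, hu1, one_pow, one_mul]
  rw [hgoal]
  set a : Fin d → ℝ := fun i => 1 - (α i).re with ha
  have ha0 : ∀ i, 0 ≤ a i := fun i => by
    have := hα1 i
    simp only [a]
    nlinarith [sq_nonneg ((α i).im)]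
  set S := ∑ i, a i with hS
  set Q := ∑ i, a i ^ 2 with hQ
  have hSval : S = d - X := by
    simp only [S, a, Finset.sum_sub_distrib, hre]
    simp
  have hQS : Q ≤ S ^ 2 := Finset.sum_sq_le_sq_sum_of_nonneg fun i _ => ha0 i
  have hS2 : S ≤ 2 := by linarith
  have hS0 : 0 ≤ S := Finset.sum_nonneg fun i _ => ha0 i
  have hQpos : 0 < Q := by
    refine (Finset.sum_nonneg fun i _ => sq_nonneg (a i)).lt_of_ne fun h => ?_
    have hz : ∀ i, a i = 0 := fun i => by
      have := (Finset.sum_eq_zero_iff_of_nonneg fun j _ => sq_nonneg (a j)).1 h.symm i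
        (Finset.mem_univ i)
      exact pow_eq_zero_iff two_ne_zero |>.1 this
    have : S = 0 := Finset.sum_eq_zero fun i _ => hz i
    linarith
  have hsq : ∑ i, (α i).im ^ 2 ≤ 2 * S := by
    rw [hS, Finset.mul_sum]
    refine Finset.sum_le_sum fun i _ => ?_
    have := hα1 i
    simp only [a]
    nlinarith [sq_nonneg (1 - (α i).re)]
  have hcs : (∑ i, (α i).im * a i) ^ 2 ≤ 2 * S * Q :=
    (Finset.sum_mul_sq_le_sq_mul_sq Finset.univ _ _).trans
      (mul_le_mul_of_nonneg_right hsq hQpos.le)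
  set R := X ^ 2 - d + 4 * S with hR
  have hRe : ((X : ℂ) ^ 2 - ∑ i, α i ^ 2).re = R - 2 * Q := by
    have e : ∀ i, (α i ^ 2).re = 1 - 4 * a i + 2 * a i ^ 2 := fun i => by
      have := hα1 i
      simp only [pow_two, Complex.mul_re, a]
      nlinarith
    rw [Complex.sub_re, Complex.re_sum, Finset.sum_congr rfl fun i _ => e i,
      Finset.sum_add_distrib, Finset.sum_sub_distrib, ← Finset.mul_sum, ← Finset.mul_sum, ← hS,
      ← hQ, hR]
    simp [pow_two]
    ring
  have hIm : ((X : ℂ) ^ 2 - ∑ i, α i ^ 2).im = 2 * ∑ i, (α i).im * a i := by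
    have e : ∀ i, (α i ^ 2).im = 2 * (α i).im - 2 * ((α i).im * a i) := fun i => by
      simp only [pow_two, Complex.mul_im, a]
      ring
    rw [Complex.sub_im, Complex.im_sum, Finset.sum_congr rfl fun i _ => e i,
      Finset.sum_sub_distrib, ← Finset.mul_sum, ← Finset.mul_sum, him]
    simp [pow_two]
  have hR0 : Q + 2 * S < R := by
    have : S ^ 2 ≤ 2 * S := by nlinarith
    nlinarith
  have hlt : ‖(X : ℂ) ^ 2 - ∑ i, α i ^ 2‖ < R := by
    have hR1 : 0 ≤ R := by linarith
    rw [← sq_lt_sq₀ (norm_nonneg _) hR1, ← Complex.normSq_eq_norm_sq, Complex.normSq_apply, hRe,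
      hIm]
    nlinarith
  refine hlt.trans_le ?_
  rw [hR, hSval]
  nlinarith [mul_nonneg (sub_nonneg.2 hX3) (sub_nonneg.2 h2.le)]

variable {p : ℕ} [hp : Fact p.Prime] {G : Type*} [Group G] [Fintype G] {z : G}
  {V K : Subgroup G} {χ : Cfsg.IrrCharacter G} {d : ℕ} {O : ValuationSubring ℂ}
  {A : G →* Matrix (Fin d) (Fin d) ℂ}

/-- The value at a power of `z`, from the multiplicities. -/
theorem value_zpow (L : Lat p χ.1 O A) (hz : orderOf z = p) (i : ZMod p) :
    χ.1 (z ^ i.val) = ∑ j : ZMod p, (mult z A j : ℂ) * rt (i * j) := by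
  rw [← L.tr]
  conv_lhs => rw [← mul_one (A (z ^ i.val)), ← sum_eProj (p := p) (z := z) (A := A), Finset.mul_sum]
  rw [Matrix.trace_sum]
  refine Finset.sum_congr rfl fun j _ => ?_
  rw [zpow_mul_eProj hz, Matrix.trace_smul, ← mult_cast hz, smul_eq_mul, mul_comm]

/-- The facts used below. -/
structure Core (p : ℕ) [Fact p.Prime] (z : G) (χ : Cfsg.IrrCharacter G) (V : Subgroup G)
    (ω : V →* ℂ) (k : ZMod p) : Prop where
  unit : ∀ v, ω v * conj (ω v) = 1
  inj : ∀ v, ω v = 1 → v = 1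
  mulv : ∀ (g : G) (v : V), χ.1 (g * v) = ω v * χ.1 g
  zval : ∀ i : ZMod p, χ.1 (z ^ i.val) =
    (if i = 0 then (p : ℂ) else 0) - rt (i * k) - rt (-(i * k))
  k0 : k ≠ 0
  exps : H30.conjExps p z = {1, -1}
  cen : V ≤ Subgroup.center G
  odd : Odd (Nat.card V)

theorem Hyp.exists_core (H : Hyp p z χ) (L : Lat p χ.1 O A) (S : Parts p z V K)
    (hodd : Odd (Nat.card V)) [Fintype V] :
    ∃ (ω : V →* ℂ) (k : ZMod p), Core p z χ V ω k := by
  classical
  obtain ⟨k, hk, hn, hexps⟩ := H.shape L S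
  have hcen := H.V_le_center L S
  obtain ⟨ω, -, hω, hinj, hωχ⟩ := exists_omega H L hcen
  refine ⟨ω, k, hω, hinj, hωχ, fun i => ?_, hk, hexps, hcen, hodd⟩
  have hkk : k ≠ -k := fun h => by
    rw [eq_neg_iff_add_eq_zero, ← two_mul, mul_eq_zero] at h
    rcases h with h | h
    · have h2 : ((2 : ℕ) : ZMod p) = 0 := by exact_mod_cast h
      have := Nat.le_of_dvd two_pos ((CharP.cast_eq_zero_iff (ZMod p) p 2).1 h2)
      have := H.five
      omega
    · exact hk h
  rw [value_zpow L H.ord, Finset.sum_congr rfl fun j _ => show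
    (mult z A j : ℂ) * rt (i * j) = rt (j * i) - (if j = k then rt (j * i) else 0) -
      (if j = -k then rt (j * i) else 0) by
    rw [hn j, mul_comm i j]
    by_cases h1 : j = k
    · subst h1
      simp [hkk]
    · by_cases h2 : j = -k
      · subst h2
        simp [h1]
      · simp [h1, h2]]
  rw [Finset.sum_sub_distrib, Finset.sum_sub_distrib, sum_rt, Finset.sum_ite_eq',
    Finset.sum_ite_eq', if_pos (Finset.mem_univ _), if_pos (Finset.mem_univ _), mul_comm k i,
    neg_mul, mul_comm k i]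

variable [Fintype V] {ω : V →* ℂ} {k : ZMod p}

theorem not_dvd_card_sub (hsq : ¬ p ^ 2 ∣ Nat.card G) (hz : orderOf z = p) :
    ¬ p ∣ Nat.card G / p := fun h => hsq (by
  rw [← Nat.mul_div_cancel' (hz ▸ orderOf_dvd_natCard z : p ∣ Nat.card G), pow_two]
  exact mul_dvd_mul_left p h)

/-- An exponent that squares the central character and fixes elements of order four. -/
theorem exists_sq_exponent (H : Hyp p z χ) (S : Parts p z V K) (hodd : Odd (Nat.card V)) :
    ∃ b : ℕ, b.Coprime (Nat.card G / p) ∧ (∀ v : V, v ^ b = v ^ 2) ∧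
      ∀ g : G, g ^ 4 = 1 → g ^ b = g := by
  set m := Nat.card G / p with hm
  have hm0 : m ≠ 0 := fun h => not_dvd_card_sub H.sq H.ord (by rw [← hm, h]; exact dvd_zero p)
  set m' := ordCompl[2] m with hm'
  have hm'odd : ¬ 2 ∣ m' := Nat.not_dvd_ordCompl Nat.prime_two hm0
  set s := m.factorization 2 with hs
  have hco : (2 ^ (s + 2)).Coprime m' :=
    Nat.Coprime.pow_left _ ((Nat.prime_two.coprime_iff_not_dvd).2 hm'odd)
  obtain ⟨b, hb1, hb2⟩ := Nat.chineseRemainder hco 1 2
  refine ⟨b, ?_, fun v => ?_, fun g hg => ?_⟩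
  · have hcp2 : b.Coprime (2 ^ s) := by
      rw [Nat.coprime_iff_gcd_eq_one,
        Nat.ModEq.gcd_eq (hb1.of_dvd (pow_dvd_pow 2 (Nat.le_add_right s 2)))]
      exact Nat.gcd_one_left _
    have hcpm' : b.Coprime m' := by
      rw [Nat.coprime_iff_gcd_eq_one, Nat.ModEq.gcd_eq hb2]
      exact (Nat.prime_two.coprime_iff_not_dvd).2 hm'odd
    rw [← Nat.ordProj_mul_ordCompl_eq_self m 2]
    exact Nat.Coprime.mul_right hcp2 hcpm'
  · refine pow_eq_pow_iff_modEq.2 (hb2.of_dvd ?_)
    refine (orderOf_dvd_natCard v).trans ?_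
    have h1 : Nat.card V ∣ m := by
      refine Nat.Coprime.dvd_of_dvd_mul_left ((hp.out.coprime_iff_not_dvd).2 S.ndvd_V).symm ?_
      rw [hm, Nat.mul_div_cancel' (H.ord ▸ orderOf_dvd_natCard z : p ∣ Nat.card G)]
      exact Subgroup.card_subgroup_dvd_card V
    refine Nat.Coprime.dvd_of_dvd_mul_left ?_
      ((Nat.ordProj_mul_ordCompl_eq_self m 2).symm ▸ h1)
    exact (Nat.Coprime.pow_left _ ((Nat.prime_two.coprime_iff_not_dvd).2
      fun h => Nat.not_even_iff_odd.2 hodd (even_iff_two_dvd.2 h))).symm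
  · conv_rhs => rw [← pow_one g]
    refine pow_eq_pow_iff_modEq.2 (hb1.of_dvd ((orderOf_dvd_of_pow_eq_one hg).trans ?_))
    rw [pow_add]
    exact dvd_mul_left 4 _

/-- The square identity on `p`-regular elements. -/
theorem sq_identity (H : Hyp p z χ) (S : Parts p z V K) (C : Core p z χ V ω k) :
    ∃ b : ℕ, b.Coprime (Nat.card G / p) ∧ (∀ g : G, g ^ 4 = 1 → g ^ b = g) ∧
      (∀ v : V, v ^ b = v ^ 2) ∧
      ∀ g : G, ¬ p ∣ orderOf g →
        χ.1 g ^ 2 - χ.1 (g * g) = ((p - 3 : ℕ) : ℂ) * χ.1 (g ^ b) := by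
  classical
  obtain ⟨b, hb, hbv, hb4⟩ := exists_sq_exponent H S C.odd
  refine ⟨b, hb, hb4, hbv, ?_⟩
  have h5 := H.five
  have hex : ∀ a : ZMod p, a ≠ 0 → ∃ θ : Cfsg.IrrCharacter G,
      θ.1 1 = ((p - 2 : ℕ) : ℂ) ∧
      (∀ (i : ZMod p) (v : V), θ.1 (z ^ i.val * (v : G)) = ω v ^ 2 *
        ((if i = 0 then (p : ℂ) else 0) - rt (i * (a * k)) - rt (-(i * (a * k))))) ∧
      ∀ g : G, ¬ p ∣ orderOf g → θ.1 g = χ.1 (g ^ b) := by
    intro a ha
    obtain ⟨r, hr, hra, hrb⟩ := exists_exponent H.ord H.sq ha hb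
    refine ⟨H45.galIrr hr χ, ?_, fun i v => ?_, fun g hg => ?_⟩
    · show χ.1 (1 ^ r) = _
      rw [one_pow, H.deg]
    · show χ.1 ((z ^ i.val * (v : G)) ^ r) = _
      have hv : ¬ p ∣ orderOf (v : G) := fun h =>
        S.ndvd_V (h.trans (by rw [Subgroup.orderOf_coe]; exact orderOf_dvd_natCard v))
      rw [((S.commute v).pow_left i.val).mul_pow, pow_eq_of_modEq H.ord hv hrb,
        ← Subgroup.coe_pow, C.mulv, hbv, map_pow ω, ← pow_mul, mul_comm i.val r,
        pow_mul, ← pow_val_natCast H.ord r, pow_val_mul H.ord, hra, C.zval]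
      congr 1
      simp only [mul_eq_zero, ha, or_false, false_or, mul_comm a i, mul_assoc]
    · show χ.1 (g ^ r) = _
      rw [pow_eq_of_modEq H.ord hg hrb]
  choose θ hθ1 hθz hθreg using hex
  have hω2 : ∀ v : V, ω v ^ 2 * conj (ω v ^ 2) = 1 := fun v => by
    rw [map_pow, ← mul_pow, C.unit, one_pow]
  -- the exterior square
  set W : G → ℂ := H63.HalfNorm.extSq χ.1 with hW
  have hWc : Cfsg.IsCharacter G W := H63.HalfNorm.isCharacter_extSq (H26.irr_isCharacter χ)
  have hWcf := H26.isClassFunction_of_isCharacter hWc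
  have hWz : ∀ (i : ZMod p) (v : V), W (z ^ i.val * (v : G)) = ω v ^ 2 *
      ((p : ℂ) * ((p : ℂ) - 5) / 2 * (if i = 0 then 1 else 0) + 1 + rt (i * (2 * k)) +
        rt (-(i * (2 * k)))) := by
    intro i v
    have e : z ^ i.val * (v : G) * (z ^ i.val * (v : G)) =
        z ^ (i + i).val * ((v * v : V) : G) := by
      rw [pow_val_add H.ord, Subgroup.coe_mul]
      have hc : Commute (z ^ i.val) (v : G) := (S.commute v).pow_left _
      rw [mul_assoc, ← mul_assoc (v : G), ← hc.eq]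
      simp only [mul_assoc]
    simp only [hW, H63.HalfNorm.extSq]
    rw [e, C.mulv, C.mulv, C.zval, C.zval, map_mul]
    have h2 : (i + i = 0) ↔ i = 0 := by
      constructor
      · intro h
        rw [← two_mul, mul_eq_zero] at h
        refine h.resolve_left fun h => ?_
        have h2 : ((2 : ℕ) : ZMod p) = 0 := by exact_mod_cast h
        have := Nat.le_of_dvd two_pos ((CharP.cast_eq_zero_iff (ZMod p) p 2).1 h2)
        omega
      · intro h; rw [h, add_zero]
    have hprod : rt (i * k) * rt (-(i * k)) = 1 := by rw [← rt_add, add_neg_cancel, rt_zero]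
    have hsq : rt (i * k) ^ 2 = rt (i * (2 * k)) := by rw [pow_two, ← rt_add]; congr 1; ring
    have hsq' : rt (-(i * k)) ^ 2 = rt (-(i * (2 * k))) := by rw [pow_two, ← rt_add]; congr 1; ring
    have hd1 : rt ((i + i) * k) = rt (i * (2 * k)) := by congr 1; ring
    have hd2 : rt (-((i + i) * k)) = rt (-(i * (2 * k))) := by congr 1; ring
    rw [hd1, hd2]
    by_cases hi : i = 0
    · subst hi
      simp [rt_zero]
      ring
    · rw [if_neg hi, if_neg (mt h2.1 hi), if_neg hi]
      linear_combination (ω v ^ 2) * hprod + (ω v ^ 2 / 2) * hsq + (ω v ^ 2 / 2) * hsq'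
  have hWmult : ∀ j : ZMod p, cmult z W j = ((p : ℂ) - 5) / 2 + (if j = 0 then 1 else 0) +
      (if j = 2 * k then 1 else 0) + (if j = -(2 * k) then 1 else 0) := by
    intro j
    have hval : ∀ i : ZMod p, W (z ^ i.val) = (p : ℂ) * ((p : ℂ) - 5) / 2 *
        (if i = 0 then 1 else 0) + 1 + rt (i * (2 * k)) + rt (-(i * (2 * k))) := fun i => by
      have := hWz i 1
      simpa using this
    have hpt : ∀ i : ZMod p, rt (-(i * j)) * W (z ^ i.val) =
        (if i = 0 then (p : ℂ) * ((p : ℂ) - 5) / 2 else 0) + rt (i * (-j)) +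
          rt (i * (2 * k - j)) + rt (i * (-(2 * k) - j)) := by
      intro i
      rw [hval i, show i * (-j) = -(i * j) by ring,
        show i * (2 * k - j) = -(i * j) + i * (2 * k) by ring,
        show i * (-(2 * k) - j) = -(i * j) + -(i * (2 * k)) by ring, rt_add, rt_add]
      by_cases hi : i = 0
      · subst hi
        simp [rt_zero]
      · rw [if_neg hi, if_neg hi]
        ring
    rw [cmult, Finset.sum_congr rfl fun i _ => hpt i]
    simp only [Finset.sum_add_distrib, sum_rt, Finset.sum_ite_eq', Finset.mem_univ, if_true,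
      neg_eq_zero, sub_eq_zero, eq_comm (b := j)]
    have hp0 : (p : ℂ) ≠ 0 := p_ne_zero
    field_simp
    split_ifs <;> ring
  -- differences of conjugates
  have hdiff : ∀ (a a' : ZMod p) (ha : a ≠ 0) (ha' : a' ≠ 0),
      (θ a ha).1 - (θ a' ha').1 = bigF z (fun v => ω v ^ 2) (a' * k) (a * k) := by
    intro a a' ha ha'
    funext g
    rw [Pi.sub_apply]
    by_cases hg : p ∣ orderOf g
    · obtain ⟨i, v, hi, hc⟩ := S.exists_conj hg
      obtain ⟨y, hy⟩ := isConj_iff.1 hc
      rw [← H26.isClassFunction_of_isCharacter (H26.irr_isCharacter (θ a ha)) g y,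
        ← H26.isClassFunction_of_isCharacter (H26.irr_isCharacter (θ a' ha')) g y,
        ← bigF_isClassFunction (z := z) (fun v => ω v ^ 2) (a' * k) (a * k) g y, hy,
        bigF_apply S C.cen _ _ _ hi, hθz, hθz, C.exps, Finset.sum_insert (by
          rw [Finset.mem_singleton]
          intro h
          have h2 : ((2 : ℕ) : ZMod p) = 0 := by
            push_cast
            linear_combination h
          have := Nat.le_of_dvd two_pos ((CharP.cast_eq_zero_iff (ZMod p) p 2).1 h2)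
          omega), Finset.sum_singleton]
      simp only [fdiff, if_neg hi, one_mul, neg_mul]
      ring
    · rw [hθreg a ha g hg, hθreg a' ha' g hg, sub_self, bigF_eq_zero S _ _ _ hg]
  have hm : ∀ (a a' : ZMod p) (ha : a ≠ 0) (ha' : a' ≠ 0),
      Cfsg.classInner W (θ a ha).1 - Cfsg.classInner W (θ a' ha').1 =
        cmult z W (a' * k) - cmult z W (a * k) := by
    intro a a' ha ha'
    rw [← classInner_bigF_central (V := V) W hWcf (fun v => ω v ^ 2) hω2 (fun i v => by
      rw [hWz i v, show W (z ^ i.val) = W (z ^ i.val * ((1 : V) : G)) by simp, hWz i 1]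
      simp), ← hdiff a a' ha ha']
    simp [Cfsg.classInner, map_sub, mul_sub, Finset.sum_sub_distrib]
  obtain ⟨mW, hmW, hWexp⟩ := H26.exists_nat_coeffs hWc
  -- representatives
  set t := (p - 1) / 2 with ht
  set R : Finset ℕ := (Finset.Icc 1 t).erase 2 with hR
  have hne : ∀ a ∈ R, (a : ZMod p) ≠ 0 := by
    intro a ha h
    simp only [hR, Finset.mem_erase, Finset.mem_Icc] at ha
    have := Nat.le_of_dvd (by omega) ((CharP.cast_eq_zero_iff (ZMod p) p a).1 h)
    omega
  have hcastinj : ∀ a b : ℕ, a < p → b < p → (a : ZMod p) = b → a = b := fun a b ha hb h => by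
    rw [ZMod.natCast_eq_natCast_iff] at h
    exact Nat.ModEq.eq_of_lt_of_lt h ha hb
  have hnadd : ∀ a b : ℕ, a ≤ t → b ≤ t → 1 ≤ a → (a : ZMod p) ≠ -(b : ZMod p) :=
    fun a b ha hb ha1 h => by
      rw [eq_neg_iff_add_eq_zero, ← Nat.cast_add, CharP.cast_eq_zero_iff (ZMod p) p] at h
      have := Nat.le_of_dvd (by omega) h
      omega
  have h2ne : ((2 : ℕ) : ZMod p) ≠ 0 := fun h => by
    have := Nat.le_of_dvd two_pos ((CharP.cast_eq_zero_iff (ZMod p) p 2).1 h)
    omega
  have h2k : (2 : ZMod p) * k ≠ 0 := mul_ne_zero (by exact_mod_cast h2ne) C.k0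
  have hge : ∀ (a : ℕ) (ha : a ∈ R), 1 ≤ mW (θ (a : ZMod p) (hne a ha)) := by
    intro a ha
    have hmem := ha
    simp only [hR, Finset.mem_erase, Finset.mem_Icc] at hmem
    have h := hm (a : ZMod p) ((2 : ℕ) : ZMod p) (hne a ha) h2ne
    rw [hmW, hmW, hWmult, hWmult] at h
    have e1 : ((a : ZMod p) * k = 2 * k) ↔ False := by
      simp only [mul_eq_mul_right_iff, C.k0, or_false, iff_false]
      intro e
      exact hmem.1 (hcastinj a 2 (by omega) (by omega) (by exact_mod_cast e))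
    have e2 : ((a : ZMod p) * k = -(2 * k)) ↔ False := by
      rw [← neg_mul]
      simp only [mul_eq_mul_right_iff, C.k0, or_false, iff_false]
      intro e
      exact hnadd a 2 hmem.2.2 (by omega) hmem.2.1 (by exact_mod_cast e)
    have e3 : (2 * k = -(2 * k)) ↔ False := by
      simp only [iff_false, eq_neg_iff_add_eq_zero, ← two_mul]
      exact mul_ne_zero (by exact_mod_cast h2ne) h2k
    push_cast at h
    simp only [e1, e2, e3, if_false, if_true, if_neg h2k,
      if_neg (mul_ne_zero (hne a ha) C.k0)] at h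
    have h' : ((mW (θ (a : ZMod p) (hne a ha)) : ℕ) : ℂ) =
        ((mW (θ ((2 : ℕ) : ZMod p) h2ne) + 1 : ℕ) : ℂ) := by
      push_cast
      linear_combination h
    have := Nat.cast_injective h'
    omega
  set T : Finset (Cfsg.IrrCharacter G) :=
    R.attach.image fun a => θ (a.1 : ZMod p) (hne a.1 a.2) with hT
  have hinjθ : ∀ (a b : ℕ) (ha : a ∈ R) (hb : b ∈ R),
      θ (a : ZMod p) (hne a ha) = θ (b : ZMod p) (hne b hb) → a = b := by
    intro a b ha hb e
    have hv : ∀ i : ZMod p, rt (i * ((a : ZMod p) * k)) + rt (-(i * ((a : ZMod p) * k))) =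
        rt (i * ((b : ZMod p) * k)) + rt (-(i * ((b : ZMod p) * k))) := fun i => by
      have h1 := hθz (a : ZMod p) (hne a ha) i 1
      rw [e, hθz (b : ZMod p) (hne b hb) i 1, map_one] at h1
      linear_combination h1
    have hs := congrArg (fun f : ZMod p → ℂ => ∑ i, f i * rt (-(i * ((a : ZMod p) * k)))) (funext hv)
    simp only [add_mul, ← rt_add, Finset.sum_add_distrib] at hs
    have e0 : ∀ c : ZMod p, ∀ i : ZMod p, i * c + -(i * ((a : ZMod p) * k)) =
        i * (c - (a : ZMod p) * k) := fun c i => by ring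
    have e1 : ∀ c : ZMod p, ∀ i : ZMod p, -(i * c) + -(i * ((a : ZMod p) * k)) =
        i * (-c - (a : ZMod p) * k) := fun c i => by ring
    simp only [e0, e1, sum_rt, sub_self, if_true] at hs
    simp only [hR, Finset.mem_erase, Finset.mem_Icc] at ha hb
    have hna : ¬ (-((a : ZMod p) * k) - (a : ZMod p) * k = 0) := by
      rw [sub_eq_zero, ← neg_mul, mul_eq_mul_right_iff, not_or]
      exact ⟨fun h => hnadd a a ha.2.2 ha.2.2 ha.2.1 h.symm, C.k0⟩
    have hnb : ¬ (-((b : ZMod p) * k) - (a : ZMod p) * k = 0) := by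
      rw [sub_eq_zero, ← neg_mul, mul_eq_mul_right_iff, not_or]
      exact ⟨fun h => hnadd a b ha.2.2 hb.2.2 ha.2.1 h.symm, C.k0⟩
    rw [if_neg hna, if_neg hnb] at hs
    by_contra hab
    rw [if_neg, add_zero, add_zero] at hs
    · exact p_ne_zero hs
    · rw [sub_eq_zero, mul_eq_mul_right_iff, not_or]
      exact ⟨fun h => hab (hcastinj a b (by omega) (by omega) h.symm), C.k0⟩
  have hTcard : T.card = t - 1 := by
    rw [hT, Finset.card_image_of_injective _ fun a b e => Subtype.ext (hinjθ _ _ a.2 b.2 e),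
      Finset.card_attach, hR, Finset.card_erase_of_mem (by rw [Finset.mem_Icc]; omega),
      Nat.card_Icc]
    omega
  -- degrees
  have hexact : ∀ ψ, mW ψ = if ψ ∈ T then 1 else 0 := by
    have h1 := congrFun hWexp 1
    rw [Finset.sum_apply] at h1
    have hdeg : ∀ ψ : Cfsg.IrrCharacter G, ∃ D : ℕ, 0 < D ∧ ψ.1 1 = (D : ℂ) :=
      fun ψ => ⟨_, (irr_degree ψ).2, (irr_degree ψ).1⟩
    choose D hD0 hD using hdeg
    have hW1 : W 1 = (((p - 2) * (t - 1) : ℕ) : ℂ) := by
      simp only [hW, H63.HalfNorm.extSq, mul_one, H.deg]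
      have hodd : Odd p := hp.out.odd_of_ne_two (by omega)
      obtain ⟨q, hq⟩ := hodd
      rw [show p - 2 = 2 * q - 1 by omega, show t - 1 = q - 1 by omega, Nat.cast_mul,
        Nat.cast_sub (by omega), Nat.cast_sub (by omega)]
      push_cast
      ring
    rw [hW1] at h1
    simp only [Pi.smul_apply, smul_eq_mul, hD] at h1
    have h2 : ∑ ψ : Cfsg.IrrCharacter G, mW ψ * D ψ = (p - 2) * (t - 1) := by exact_mod_cast h1.symm
    have hTD : ∀ ψ ∈ T, D ψ = p - 2 ∧ 1 ≤ mW ψ := by
      intro ψ hψ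
      obtain ⟨a, -, rfl⟩ := Finset.mem_image.1 hψ
      refine ⟨?_, hge a.1 a.2⟩
      have h3 := hD (θ (a.1 : ZMod p) (hne a.1 a.2))
      rw [hθ1] at h3
      exact_mod_cast h3.symm
    have h3 : ∑ ψ : Cfsg.IrrCharacter G, (if ψ ∈ T then 1 else 0) * D ψ = (p - 2) * (t - 1) := by
      simp only [ite_mul, one_mul, zero_mul, Finset.sum_ite_mem, Finset.univ_inter]
      rw [Finset.sum_congr rfl fun ψ hψ => (hTD ψ hψ).1, Finset.sum_const, hTcard, smul_eq_mul,
        mul_comm]
    have hle : ∀ ψ ∈ (Finset.univ : Finset (Cfsg.IrrCharacter G)),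
        (if ψ ∈ T then 1 else 0) * D ψ ≤ mW ψ * D ψ := fun ψ _ => by
      refine Nat.mul_le_mul_right _ ?_
      split_ifs with h
      · exact (hTD ψ h).2
      · exact Nat.zero_le _
    intro ψ
    have h4 := (Finset.sum_eq_sum_iff_of_le hle).1 (h3.trans h2.symm) ψ (Finset.mem_univ ψ)
    exact (Nat.eq_of_mul_eq_mul_right (hD0 ψ) h4).symm
  intro g hg
  have h1 := congrFun hWexp g
  simp only [hexact, Finset.sum_apply, Pi.smul_apply, smul_eq_mul] at h1
  have h2 : W g = ((t - 1 : ℕ) : ℂ) * χ.1 (g ^ b) := by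
    rw [h1]
    simp only [Nat.cast_ite, Nat.cast_one, Nat.cast_zero, ite_mul, one_mul, zero_mul,
      Finset.sum_ite_mem, Finset.univ_inter]
    rw [Finset.sum_congr rfl fun ψ hψ => ?_, Finset.sum_const, hTcard, nsmul_eq_mul]
    obtain ⟨a, -, rfl⟩ := Finset.mem_image.1 hψ
    exact hθreg _ _ g hg
  simp only [hW, H63.HalfNorm.extSq] at h2
  have h3 : ((p - 3 : ℕ) : ℂ) = 2 * ((t - 1 : ℕ) : ℂ) := by
    obtain ⟨q, hq⟩ := hp.out.odd_of_ne_two (show p ≠ 2 by omega)
    have : p - 3 = 2 * (t - 1) := by omega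
    rw [this]; push_cast; rfl
  rw [h3]
  linear_combination 2 * h2

end Cfsg.Agent.H39.SmallDeg
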