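import Mathlib
import Cfsg.Agent.H39.SmallDeg.Square

/-!
The values of a faithful irreducible character of degree `p - 2` on `p`-regular elements, the
centralisers of involutions, and the order of the group, when the centre has odd order.
-/

set_option autoImplicit false
set_option linter.unusedSectionVars false

namespace Cfsg.Agent.H39.SmallDeg

open Cfsg.Agent.H31.Defect
open scoped ComplexConjugate

variable {p : ℕ} [hp : Fact p.Prime] {G : Type*} [Group G] [Fintype G] {z : G}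
  {V K : Subgroup G} {χ : Cfsg.IrrCharacter G} {d : ℕ} {O : ValuationSubring ℂ}
  {A : G →* Matrix (Fin d) (Fin d) ℂ}

theorem Hyp.seven_le (H : Hyp p z χ) : 7 ≤ p := by
  have h5 := H.five
  by_contra hlt
  have h6 : p = 6 := by omega
  exact absurd (h6 ▸ hp.out) (by decide)

/-- The eigenvalues of an element. -/
theorem Hyp.exists_roots (H : Hyp p z χ) (g : G) :
    ∃ μ : Fin (p - 2) → ℂ, (∀ i, μ i ^ orderOf g = 1) ∧ χ.1 g = ∑ i, μ i ∧
      χ.1 (g * g) = ∑ i, μ i ^ 2 := by
  obtain ⟨n, ρ, -, hρ⟩ := χ.2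
  have hn : Module.finrank ℂ (Fin n → ℂ) = p - 2 := by
    have h := H.deg
    rw [← hρ, Representation.char_one] at h
    exact_mod_cast h
  obtain ⟨b, μ, h1, h2, h3⟩ := H25.exists_eigenbasis ρ g
  refine ⟨fun i => μ (i.cast hn.symm), fun i => h2 _, ?_, ?_⟩
  · rw [← hρ, h3]
    exact (Fintype.sum_equiv (finCongr hn.symm) _ _ fun i => rfl).symm
  · rw [← hρ]
    refine (H25.trace_eq_sum_of_eigenbasis (ρ (g * g)) b (fun i => μ i ^ 2) fun i => ?_).trans
      (Fintype.sum_equiv (finCongr hn.symm) _ _ fun i => rfl).symm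
    rw [map_mul, Module.End.mul_apply, h1, map_smul, h1, smul_smul, pow_two]

/-- Maximal absolute value is attained in the centre only. -/
theorem Hyp.norm_lt (H : Hyp p z χ) {g : G} (hg : g ∉ Subgroup.center G) :
    ‖χ.1 g‖ < ((p - 2 : ℕ) : ℝ) := by
  obtain ⟨n, ρ, -, hρ⟩ := χ.2
  have hn : Module.finrank ℂ (Fin n → ℂ) = p - 2 := by
    have h := H.deg
    rw [← hρ, Representation.char_one] at h
    exact_mod_cast h
  rw [← hρ]
  refine lt_of_le_of_ne (hn ▸ H25.norm_char_le ρ g) fun h => hg ?_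
  have hs := H25.apply_eq_smul_id_of_norm_eq ρ g (by rw [h, hn])
  rw [Subgroup.mem_center_iff]
  intro x
  have hc : ρ (x * g) = ρ (g * x) := by
    rw [map_mul, map_mul, hs]
    ext v
    simp
  have h1 : ρ ((g * x)⁻¹ * (x * g)) = 1 := by rw [map_mul, hc, ← map_mul, inv_mul_cancel, map_one]
  have h2 : (g * x)⁻¹ * (x * g) = 1 := by
    refine H.faith _ ?_
    rw [← hρ, Representation.character, Representation.character, h1, map_one ρ]
  exact (inv_mul_eq_one.1 h2).symm

/-- The square identity, as a hypothesis. -/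
structure Sqd (p : ℕ) (χ : Cfsg.IrrCharacter G) (b : ℕ) : Prop where
  co : b.Coprime (Nat.card G / p)
  four : ∀ g : G, g ^ 4 = 1 → g ^ b = g
  ident : ∀ g : G, ¬ p ∣ orderOf g →
    χ.1 g ^ 2 - χ.1 (g * g) = ((p - 3 : ℕ) : ℂ) * χ.1 (g ^ b)

theorem not_dvd_orderOf_of_pow_eq_one {g : G} {n : ℕ} (h : g ^ n = 1) (hn : ¬ p ∣ n) :
    ¬ p ∣ orderOf g := fun hd => hn (hd.trans (orderOf_dvd_of_pow_eq_one h))

variable {b : ℕ} (H : Hyp p z χ) (Q : Sqd p χ b)

include H Q in
theorem value_invol {h : G} (h2 : h ^ 2 = 1) (h1 : h ≠ 1) : χ.1 h = -1 := by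
  have h7 := H.seven_le
  have h4 : h ^ 4 = 1 := by rw [show 4 = 2 * 2 from rfl, pow_mul, h2, one_pow]
  have hr : ¬ p ∣ orderOf h := not_dvd_orderOf_of_pow_eq_one h2
    (fun hd => by have := Nat.le_of_dvd two_pos hd; omega)
  have he := Q.ident h hr
  rw [Q.four h h4, ← pow_two h, h2, H.deg] at he
  have e2 : ((p - 2 : ℕ) : ℂ) = ((p - 3 : ℕ) : ℂ) + 1 := by
    rw [show p - 2 = p - 3 + 1 by omega]; push_cast; rfl
  have : (χ.1 h + 1) * (χ.1 h - ((p - 2 : ℕ) : ℂ)) = 0 := by
    rw [e2] at he ⊢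
    linear_combination he
  rcases mul_eq_zero.1 this with e | e
  · exact eq_neg_of_add_eq_zero_left e
  · exact absurd (H.faith h (by rw [H.deg]; exact sub_eq_zero.1 e)) h1

variable (hZ : Subgroup.center G = V) (hodd : Odd (Nat.card V))

include hodd in
theorem exists_root_in {n : ℕ} (hn : ∀ q, q.Prime → q ∣ n → q = 2) (v : V) :
    ∃ w : V, w ^ n = v := by
  have hc : (Nat.card V).Coprime n := Nat.coprime_of_dvd fun q hq hqV hqn => by
    rw [hn q hq hqn] at hqV
    exact Nat.not_even_iff_odd.2 hodd (even_iff_two_dvd.2 hqV)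
  exact ⟨(powCoprime hc).symm v, (powCoprime hc).apply_symm_apply v⟩

include hodd in
theorem sq_inj {u v : V} (h : u ^ 2 = v ^ 2) : u = v := by
  have hc : (Nat.card V).Coprime 2 := (Nat.coprime_two_right.2 hodd)
  exact (powCoprime hc).injective h

include H Q hZ hodd in
theorem sq_mem_of_four {g : G} (hg : g ^ 4 ∈ V) : g ^ 2 ∈ V := by
  classical
  have h7 := H.seven_le
  obtain ⟨w, hw⟩ := exists_root_in hodd (n := 4) (fun q hq hd => by
    have := Nat.le_of_dvd (by norm_num) hd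
    interval_cases q <;> first | rfl | (exfalso; revert hq hd; decide)) ⟨g ^ 4, hg⟩
  have hwc : Commute g (w : G)⁻¹ :=
    Subgroup.mem_center_iff.1 (hZ ▸ V.inv_mem w.2 : (w : G)⁻¹ ∈ Subgroup.center G) g
  set y := g * (w : G)⁻¹ with hy
  have hy4 : y ^ 4 = 1 := by
    rw [hy, hwc.mul_pow, inv_pow, ← Subgroup.coe_pow, hw]
    exact mul_inv_cancel _
  by_contra hcon
  have hy2 : y * y ≠ 1 := fun e => hcon (by
    rw [← pow_two, hy, hwc.mul_pow, inv_pow, mul_inv_eq_one] at e
    rw [e]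
    exact V.pow_mem w.2 2)
  have hyr : ¬ p ∣ orderOf y := not_dvd_orderOf_of_pow_eq_one hy4
    (fun hd => by have := Nat.le_of_dvd (by norm_num) hd; omega)
  have hval := value_invol H Q (h := y * y)
    (by rw [← pow_two y, ← pow_mul]; exact hy4) hy2
  have he := Q.ident y hyr
  rw [Q.four y hy4, hval] at he
  obtain ⟨μ, hμ, hx, -⟩ := H.exists_roots y
  have hgi : ∀ i, ∃ a c : ℤ, μ i = (a : ℂ) + (c : ℂ) * Complex.I := by
    intro i
    have h4 : μ i ^ 4 = 1 := by
      obtain ⟨q, hq⟩ := orderOf_dvd_of_pow_eq_one hy4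
      rw [hq, pow_mul, hμ, one_pow]
    have : (μ i - 1) * (μ i + 1) * ((μ i - Complex.I) * (μ i + Complex.I)) = 0 := by
      linear_combination h4 + (1 - μ i ^ 2) * Complex.I_sq
    rcases mul_eq_zero.1 this with e | e <;> rcases mul_eq_zero.1 e with e | e
    · exact ⟨1, 0, by simp [sub_eq_zero.1 e]⟩
    · exact ⟨-1, 0, by simp [eq_neg_of_add_eq_zero_left e]⟩
    · exact ⟨0, 1, by simp [sub_eq_zero.1 e]⟩
    · exact ⟨0, -1, by simp [eq_neg_of_add_eq_zero_left e]⟩
  choose a c hac using hgi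
  have hxa : χ.1 y = ((∑ i, a i : ℤ) : ℂ) + ((∑ i, c i : ℤ) : ℂ) * Complex.I := by
    rw [hx, Finset.sum_congr rfl fun i _ => hac i, Finset.sum_add_distrib, ← Finset.sum_mul]
    push_cast
    rfl
  generalize ∑ i, a i = N at hxa
  generalize ∑ i, c i = M at hxa
  rw [hxa, show ((p - 3 : ℕ) : ℂ) = (((p - 3 : ℕ) : ℤ) : ℂ) by push_cast; rfl] at he
  set e : ℤ := ((p - 3 : ℕ) : ℤ) with he'
  have he4 : 4 ≤ e := by omega
  have hre : N * N - M * M + 1 = e * N := by
    have h := congrArg Complex.re he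
    simp [pow_two] at h
    exact_mod_cast (by linarith : (N : ℝ) * N - M * M + 1 = e * N)
  have him : 2 * N * M = e * M := by
    have h := congrArg Complex.im he
    simp [pow_two] at h
    exact_mod_cast (by linarith : 2 * (N : ℝ) * M = e * M)
  rcases eq_or_ne M 0 with hM | hM
  · subst hM
    have h1 : N * (e - N) = 1 := by linarith
    rcases Int.eq_one_or_neg_one_of_mul_eq_one h1 with rfl | rfl <;> omega
  · have h1 : 2 * N = e := mul_right_cancel₀ hM him
    nlinarith [mul_self_pos.2 hM]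

include H Q hZ hodd in
/-- The character vanishes on the regular elements whose square is not central. -/
theorem value_eq_zero {g : G} (hr : ¬ p ∣ orderOf g) (hg : g ^ 2 ∉ V) : χ.1 g = 0 := by
  classical
  have h7 := H.seven_le
  by_contra hne
  set m := Nat.card G / p with hm
  have hm0 : m ≠ 0 := fun h => not_dvd_card_sub H.sq H.ord (by rw [← hm, h]; exact dvd_zero p)
  haveI : NeZero m := ⟨hm0⟩
  set c := ((b : ZMod m)⁻¹).val
  have hbc : b * c ≡ 1 [MOD m] := by
    rw [← ZMod.natCast_eq_natCast_iff]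
    push_cast
    rw [ZMod.natCast_val, ZMod.cast_id]
    exact ZMod.coe_mul_inv_eq_one b Q.co
  have hreg : ∀ (y : G) (n : ℕ), ¬ p ∣ orderOf y → ¬ p ∣ orderOf (y ^ n) := fun y n hy hd =>
    hy (hd.trans (orderOf_pow_dvd n))
  have hback : ∀ y : G, ¬ p ∣ orderOf y → (y ^ c) ^ b = y ∧ (y ^ b) ^ c = y := fun y hy => by
    constructor
    · rw [← pow_mul, mul_comm, pow_eq_of_modEq H.ord hy hbc, pow_one]
    · rw [← pow_mul, pow_eq_of_modEq H.ord hy hbc, pow_one]
  set R : Finset G := Finset.univ.filter fun y => ¬ p ∣ orderOf y ∧ y ^ 2 ∉ V with hR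
  have hmem : ∀ y, y ∈ R ↔ ¬ p ∣ orderOf y ∧ y ^ 2 ∉ V := fun y => by simp [hR]
  obtain ⟨h, hhR, hmax⟩ := R.exists_max_image (fun y => ‖χ.1 y‖) ⟨g, (hmem g).2 ⟨hr, hg⟩⟩
  have hMpos : 0 < ‖χ.1 h‖ := (norm_pos_iff.2 hne).trans_le (hmax g ((hmem g).2 ⟨hr, hg⟩))
  rw [hmem] at hhR
  set y := h ^ c with hy
  have hyr : ¬ p ∣ orderOf y := hreg h c hhR.1
  have hy2 : y ^ 2 ∉ V := fun e => hhR.2 (by
    rw [← (hback h hhR.1).1, ← pow_mul, mul_comm, pow_mul]
    exact V.pow_mem e b)
  have hyy : y * y ∈ R := by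
    rw [hmem, ← pow_two]
    refine ⟨hreg y 2 hyr, fun e => hy2 ?_⟩
    rw [← pow_mul] at e
    exact sq_mem_of_four H Q hZ hodd e
  have hyc : y ∉ Subgroup.center G := by
    rw [hZ]
    exact fun e => hy2 (V.pow_mem e 2)
  have hlt := H.norm_lt hyc
  have hle1 := hmax y ((hmem y).2 ⟨hyr, hy2⟩)
  have hle2 := hmax _ hyy
  have he := Q.ident y hyr
  rw [(hback h hhR.1).1] at he
  have hn : ‖χ.1 y ^ 2 - χ.1 (y * y)‖ = ((p - 3 : ℕ) : ℝ) * ‖χ.1 h‖ := by
    rw [he, norm_mul, Complex.norm_natCast]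
  have htri := norm_sub_le (χ.1 y ^ 2) (χ.1 (y * y))
  rw [hn, norm_pow] at htri
  have e3 : ((p - 2 : ℕ) : ℝ) = ((p - 3 : ℕ) : ℝ) + 1 := by
    rw [show p - 2 = p - 3 + 1 by omega]; push_cast; rfl
  have he4 : (4 : ℝ) ≤ ((p - 3 : ℕ) : ℝ) := by exact_mod_cast (show 4 ≤ p - 3 by omega)
  have hge : ((p - 2 : ℕ) : ℝ) - 2 ≤ ‖χ.1 y‖ := by
    have h1 : (((p - 3 : ℕ) : ℝ) - 1) * ‖χ.1 h‖ ≤ ‖χ.1 y‖ ^ 2 := by linarith
    have h2 : ‖χ.1 y‖ ^ 2 ≤ ‖χ.1 h‖ ^ 2 := pow_le_pow_left₀ (norm_nonneg _) hle1 2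
    have h3 : ((p - 3 : ℕ) : ℝ) - 1 ≤ ‖χ.1 h‖ := by nlinarith
    have h4 : (((p - 3 : ℕ) : ℝ) - 1) ^ 2 ≤ ‖χ.1 y‖ ^ 2 := by nlinarith
    have h5 := (sq_le_sq₀ (by linarith) (norm_nonneg _)).1 h4
    linarith
  obtain ⟨μ, hμ, hx, hx2⟩ := H.exists_roots y
  rw [hx] at hge hlt hle1
  have hstrict := norm_sq_sub_lt (show 5 ≤ p - 2 by omega) μ
    (fun i => Complex.norm_eq_one_of_pow_eq_one (hμ i) (orderOf_pos y).ne') hge hlt
  rw [← hx, ← hx2, hn, e3, add_sub_cancel_right] at hstrict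
  rw [← hx] at hle1
  nlinarith

variable [Fintype V] (S : Parts p z V K) {ω : V →* ℂ} {k : ZMod p} (C : Core p z χ V ω k)

include H S C in
/-- Sums over the singular elements. -/
theorem sum_singular (ξ : G → ℂ) (hξ : Cfsg.IsClassFunction G ξ) :
    2 * (p : ℂ) * (Nat.card V : ℂ) *
        ∑ g ∈ Finset.univ.filter (fun g : G => p ∣ orderOf g), ξ g =
      (Nat.card G : ℂ) * ∑ i ∈ Finset.univ.erase (0 : ZMod p), ∑ v : V, ξ (z ^ i.val * (v : G)) := by
  classical
  have h7 := H.seven_le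
  set F : G → ℂ := ∑ j : ZMod p, bigF z (fun _ : V => (1 : ℂ)) 0 j with hF
  have hFv : ∀ g, F g = if p ∣ orderOf g then 2 * (p : ℂ) else 0 := by
    intro g
    rw [hF, Finset.sum_apply]
    split_ifs with hg
    · obtain ⟨i, v, hi, hc⟩ := S.exists_conj hg
      obtain ⟨y, hy⟩ := isConj_iff.1 hc
      have e : ∀ j : ZMod p, bigF z (fun _ : V => (1 : ℂ)) 0 j g =
          ∑ a ∈ H30.conjExps p z, (1 - rt (j * (a * i))) := fun j => by
        rw [← bigF_isClassFunction (z := z) (fun _ : V => (1 : ℂ)) 0 j g y, hy,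
          bigF_apply S C.cen _ _ _ hi]
        exact Finset.sum_congr rfl fun a _ => by rw [fdiff, mul_zero, rt_zero, mul_one, mul_comm j]
      rw [Finset.sum_congr rfl fun j _ => e j, Finset.sum_comm]
      have e2 : ∀ a ∈ H30.conjExps p z, ∑ j : ZMod p, (1 - rt (j * (a * i))) = (p : ℂ) :=
        fun a ha => by
          rw [Finset.sum_sub_distrib, sum_rt, if_neg (mul_ne_zero (S.ne_zero_of_mem ha) hi)]
          simp
      rw [Finset.sum_congr rfl e2, Finset.sum_const, C.exps, Finset.card_pair, nsmul_eq_mul]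
      · push_cast; rfl
      · intro h
        have h2 : ((2 : ℕ) : ZMod p) = 0 := by push_cast; linear_combination h
        have := Nat.le_of_dvd two_pos ((CharP.cast_eq_zero_iff (ZMod p) p 2).1 h2)
        omega
    · exact Finset.sum_eq_zero fun j _ => bigF_eq_zero S _ _ _ hg
  have h1 : Cfsg.classInner ξ F = (Nat.card G : ℂ)⁻¹ * ((2 * (p : ℂ)) *
      ∑ g ∈ Finset.univ.filter (fun g : G => p ∣ orderOf g), ξ g) := by
    rw [Cfsg.classInner]
    congr 1
    rw [Finset.sum_filter, Finset.mul_sum]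
    refine Finset.sum_congr rfl fun g _ => ?_
    rw [hFv]
    split_ifs
    · rw [map_mul, map_natCast, map_ofNat]; ring
    · rw [map_zero, mul_zero, mul_zero]
  have h2 : Cfsg.classInner ξ F = (Nat.card V : ℂ)⁻¹ *
      ∑ i ∈ Finset.univ.erase (0 : ZMod p), ∑ v : V, ξ (z ^ i.val * (v : G)) := by
    rw [hF, H26.classInner_sum_right, Finset.sum_congr rfl fun j _ => classInner_bigF ξ hξ _ _ _,
      ← Finset.mul_sum, Finset.sum_comm]
    have e : ∀ i : ZMod p, (∑ j : ZMod p, ∑ v : V,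
        ξ (z ^ i.val * (v : G)) * conj (fdiff (fun _ : V => (1 : ℂ)) 0 j i v)) =
        if i = 0 then 0 else (p : ℂ) * ∑ v : V, ξ (z ^ i.val * (v : G)) := by
      intro i
      rw [Finset.sum_comm]
      simp only [fdiff, mul_zero, rt_zero, mul_one, map_sub, map_one, conj_rt, ← Finset.mul_sum,
        Finset.sum_sub_distrib, Finset.sum_const, Finset.card_univ, ZMod.card, nsmul_eq_mul]
      have e0 : ∑ j : ZMod p, rt (-(i * j)) = if i = 0 then (p : ℂ) else 0 := by
        rw [Finset.sum_congr rfl fun j _ => show rt (-(i * j)) = rt (j * (-i)) by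
          congr 1; ring, sum_rt]
        simp only [neg_eq_zero]
      rw [e0]
      split_ifs
      · simp
      · rw [sub_zero, Finset.mul_sum]
        exact Finset.sum_congr rfl fun v _ => mul_comm _ _
    rw [Finset.sum_congr rfl fun i _ => e i, ← Finset.add_sum_erase _ _ (Finset.mem_univ 0),
      if_pos rfl, zero_add, Finset.sum_congr rfl fun i hi => if_neg (Finset.mem_erase.1 hi).1,
      ← Finset.mul_sum, ← mul_assoc, Nat.cast_mul, mul_inv, mul_comm ((p : ℂ))⁻¹, mul_assoc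
      ((Nat.card V : ℂ))⁻¹, inv_mul_cancel₀ p_ne_zero, mul_one]
  rw [h1] at h2
  have hG : (Nat.card G : ℂ) ≠ 0 := Nat.cast_ne_zero.2 Nat.card_pos.ne'
  have hV : (Nat.card V : ℂ) ≠ 0 := Nat.cast_ne_zero.2 Nat.card_pos.ne'
  field_simp at h2
  linear_combination h2

include H Q hZ hodd S C in
/-- The count from the norm of the character. -/
theorem norm_count :
    p * ((p - 2) ^ 2 * Nat.card V +
      Nat.card {g : G // g ∉ V ∧ g ^ 2 ∈ V}) = 2 * Nat.card G := by
  classical
  have h7 := H.seven_le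
  set ξ : G → ℂ := fun g => χ.1 g * conj (χ.1 g) with hξd
  have hξ : Cfsg.IsClassFunction G ξ := fun g h => by
    simp only [ξ, H26.irr_conj]
  have hs := sum_singular H S C ξ hξ
  have hval : ∀ i ∈ Finset.univ.erase (0 : ZMod p), ∀ v : V, ξ (z ^ i.val * (v : G)) =
      2 + rt (i * (2 * k)) + rt (i * (-(2 * k))) := by
    intro i hi v
    simp only [ξ]
    rw [C.mulv, map_mul, C.zval, if_neg (Finset.mem_erase.1 hi).1, map_sub, map_sub, map_zero,
      conj_rt, conj_rt, neg_neg]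
    have hprod : rt (i * k) * rt (-(i * k)) = 1 := by rw [← rt_add, add_neg_cancel, rt_zero]
    rw [show rt (i * (2 * k)) = rt (i * k) * rt (i * k) by rw [← rt_add]; congr 1; ring,
      show rt (i * (-(2 * k))) = rt (-(i * k)) * rt (-(i * k)) by rw [← rt_add]; congr 1; ring]
    linear_combination ((rt (i * k) + rt (-(i * k))) ^ 2) * C.unit v + 2 * hprod
  have h2ne : (2 : ZMod p) * k ≠ 0 := mul_ne_zero (fun h => by
    have := Nat.le_of_dvd two_pos ((CharP.cast_eq_zero_iff (ZMod p) p 2).1 (by exact_mod_cast h))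
    omega) C.k0
  have hrhs : ∑ i ∈ Finset.univ.erase (0 : ZMod p), ∑ v : V, ξ (z ^ i.val * (v : G)) =
      (Nat.card V : ℂ) * (2 * (p : ℂ) - 4) := by
    rw [Finset.sum_congr rfl fun i hi => Finset.sum_congr rfl fun v _ => hval i hi v]
    simp only [Finset.sum_const, Finset.card_univ, ← Nat.card_eq_fintype_card, nsmul_eq_mul,
      ← Finset.mul_sum]
    congr 1
    rw [Finset.sum_erase_eq_sub (Finset.mem_univ _), Finset.sum_add_distrib,
      Finset.sum_add_distrib, sum_rt, sum_rt, if_neg h2ne, if_neg (neg_ne_zero.2 h2ne)]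
    simp [rt_zero]
    ring
  rw [hrhs] at hs
  have htot : ∑ g : G, ξ g = (Nat.card G : ℂ) := by
    have h := H26.classInner_irr χ χ
    rw [if_pos rfl, Cfsg.classInner] at h
    have hG : (Nat.card G : ℂ) ≠ 0 := Nat.cast_ne_zero.2 Nat.card_pos.ne'
    field_simp at h
    exact h
  rw [← Finset.sum_filter_add_sum_filter_not Finset.univ (fun g : G => p ∣ orderOf g)] at htot
  have hreg : ∑ g ∈ Finset.univ.filter (fun g : G => ¬ p ∣ orderOf g), ξ g =
      ((p - 2 : ℕ) : ℂ) ^ 2 * (Nat.card V : ℂ) +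
        (Nat.card {g : G // g ∉ V ∧ g ^ 2 ∈ V} : ℂ) := by
    have hVn : ∀ g ∈ V, g ^ Nat.card V = 1 := fun g hg =>
      congrArg Subtype.val (pow_card_eq_one' (x := (⟨g, hg⟩ : V)))
    have hpt : ∀ g : G, (if ¬ p ∣ orderOf g then ξ g else 0) =
        (if g ∈ V then ((p - 2 : ℕ) : ℂ) ^ 2 else 0) +
          (if g ∉ V ∧ g ^ 2 ∈ V then 1 else 0) := by
      intro g
      by_cases hgV : g ∈ V
      · rw [if_pos hgV, if_neg (show ¬ (g ∉ V ∧ g ^ 2 ∈ V) from fun h => h.1 hgV), add_zero,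
          if_pos (not_dvd_orderOf_of_pow_eq_one (hVn g hgV) S.ndvd_V)]
        have h := C.mulv 1 ⟨g, hgV⟩
        rw [one_mul, H.deg] at h
        show χ.1 g * conj (χ.1 g) = _
        rw [show χ.1 g = _ from h, map_mul, map_natCast]
        linear_combination ((p - 2 : ℕ) : ℂ) ^ 2 * C.unit ⟨g, hgV⟩
      · rw [if_neg hgV, zero_add]
        by_cases h2 : g ^ 2 ∈ V
        · rw [if_pos (show g ∉ V ∧ g ^ 2 ∈ V from ⟨hgV, h2⟩), if_pos (not_dvd_orderOf_of_pow_eq_one (n := 2 * Nat.card V)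
            (by rw [pow_mul, hVn _ h2]) (fun hd => (hp.out.dvd_mul.1 hd).elim
              (fun h => by have := Nat.le_of_dvd two_pos h; omega) S.ndvd_V))]
          obtain ⟨w, hw⟩ := exists_root_in hodd (n := 2)
            (fun q hq hd => (Nat.prime_dvd_prime_iff_eq hq Nat.prime_two).1 hd) ⟨g ^ 2, h2⟩
          have hwc : Commute g (w : G)⁻¹ :=
            Subgroup.mem_center_iff.1 (hZ ▸ V.inv_mem w.2 : (w : G)⁻¹ ∈ Subgroup.center G) g
          have hy := value_invol H Q (h := g * (w : G)⁻¹)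
            (by rw [hwc.mul_pow, inv_pow, ← Subgroup.coe_pow, hw]; exact mul_inv_cancel _)
            (fun e => hgV (by rw [mul_inv_eq_one.1 e]; exact w.2))
          show χ.1 g * conj (χ.1 g) = 1
          rw [show g = g * (w : G)⁻¹ * (w : G) by group, C.mulv, hy, map_mul, map_neg, map_one]
          linear_combination C.unit w
        · rw [if_neg (show ¬ (g ∉ V ∧ g ^ 2 ∈ V) from fun h => h2 h.2)]
          split_ifs with hr
          · rfl
          · show χ.1 g * conj (χ.1 g) = 0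
            rw [value_eq_zero H Q hZ hodd hr h2, zero_mul]
    rw [Finset.sum_filter, Finset.sum_congr rfl fun g _ => hpt g, Finset.sum_add_distrib,
      ← Finset.sum_filter, ← Finset.sum_filter, Finset.sum_const, Finset.sum_const,
      nsmul_eq_mul, nsmul_eq_mul, mul_one]
    simp only [Nat.card_eq_fintype_card, Fintype.card_subtype]
    rw [mul_comm]
  have hV : (Nat.card V : ℂ) ≠ 0 := Nat.cast_ne_zero.2 Nat.card_pos.ne'
  have h3 : (p : ℂ) * ∑ g ∈ Finset.univ.filter (fun g : G => ¬ p ∣ orderOf g), ξ g =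
      2 * (Nat.card G : ℂ) := by
    refine mul_left_cancel₀ (mul_ne_zero two_ne_zero hV) ?_
    linear_combination 2 * (p : ℂ) * (Nat.card V : ℂ) * htot - hs
  rw [hreg] at h3
  exact_mod_cast h3

include hZ hodd in
theorem card_sq_mem :
    Nat.card {g : G // g ∉ V ∧ g ^ 2 ∈ V} =
      Nat.card {h : G // h ^ 2 = 1 ∧ h ≠ 1} * Nat.card V := by
  rw [← Nat.card_prod]
  symm
  have hc : ∀ (g : G) (v : V), Commute g (v : G) := fun g v =>
    Subgroup.mem_center_iff.1 (hZ ▸ v.2 : (v : G) ∈ Subgroup.center G) g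
  refine Nat.card_eq_of_bijective (fun x => ⟨(x.1 : G) * (x.2 : G), ?_, ?_⟩) ⟨?_, ?_⟩
  · intro h
    have hV : (x.1 : G) ∈ V := by simpa using V.mul_mem h (V.inv_mem x.2.2)
    have : (⟨(x.1 : G), hV⟩ : V) = 1 := sq_inj hodd (Subtype.ext (by simpa using x.1.2.1))
    exact x.1.2.2 (congrArg Subtype.val this)
  · rw [(hc _ x.2).mul_pow, x.1.2.1, one_mul]
    exact V.pow_mem x.2.2 2
  · rintro ⟨⟨h, h2, h1⟩, v⟩ ⟨⟨h', h2', h1'⟩, v'⟩ e
    have e' : h * (v : G) = h' * (v' : G) := congrArg Subtype.val e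
    have : v = v' := by
      refine sq_inj hodd (Subtype.ext ?_)
      have := congrArg (· ^ 2) e'
      simpa [(hc h v).mul_pow, (hc h' v').mul_pow, h2, h2'] using this
    subst this
    exact Prod.ext (Subtype.ext (mul_right_cancel e')) rfl
  · rintro ⟨g, hg, h2⟩
    obtain ⟨w, hw⟩ := exists_root_in hodd (n := 2)
      (fun q hq hd => (Nat.prime_dvd_prime_iff_eq hq Nat.prime_two).1 hd) ⟨g ^ 2, h2⟩
    refine ⟨(⟨g * (w : G)⁻¹, ?_, fun e => hg (by rw [mul_inv_eq_one.1 e]; exact w.2)⟩, w),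
      Subtype.ext (inv_mul_cancel_right g _)⟩
    rw [((hc g w).inv_right).mul_pow, inv_pow, ← Subgroup.coe_pow, hw]
    exact mul_inv_cancel _

include H S C hodd in
theorem regular_of_commute_invol {h g : G} (h2 : h ^ 2 = 1) (h1 : h ≠ 1) (hc : Commute g h) :
    ¬ p ∣ orderOf g := by
  intro hd
  have h7 := H.seven_le
  obtain ⟨i, v, hi, hconj⟩ := S.exists_conj hd
  obtain ⟨y, hy⟩ := isConj_iff.1 hconj
  set h' := y * h * y⁻¹ with hh'
  have hc' : Commute h' (z ^ i.val * (v : G)) := by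
    rw [← hy, hh']
    show y * h * y⁻¹ * (y * g * y⁻¹) = y * g * y⁻¹ * (y * h * y⁻¹)
    rw [conj_mul, conj_mul, hc.eq]
  obtain ⟨w, hw⟩ := S.exists_power
  have hz : Commute h' z := by
    have h3 := (hc'.pow_right w).pow_right (i⁻¹).val
    rwa [hw, pow_val_mul H.ord, mul_inv_cancel₀ hi, ZMod.val_one, pow_one] at h3
  obtain ⟨j, u, hu, e⟩ := S.cover h' (Subgroup.mem_centralizer_singleton_iff.2 hz.eq)
  have h2' : h' ^ 2 = 1 := by rw [hh', conj_pow, h2, mul_one, mul_inv_cancel]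
  have hj : (j : ZMod p) = 0 := by
    by_contra hj
    have hd' := (S.orderOf_dvd_iff (j : ZMod p) ⟨u, hu⟩).2 hj
    rw [pow_val_natCast H.ord, ← e] at hd'
    have := Nat.le_of_dvd two_pos (hd'.trans (orderOf_dvd_of_pow_eq_one h2'))
    omega
  rw [← pow_val_natCast H.ord, hj, ZMod.val_zero, pow_zero, one_mul] at e
  have : (⟨u, hu⟩ : V) = 1 := sq_inj hodd (Subtype.ext (by simp [← e, h2']))
  have h3 : h' = 1 := e.trans (congrArg Subtype.val this)
  exact h1 (conj_eq_one_iff.1 h3)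

include H Q hZ hodd S C in
/-- An element commuting with an involution has central square. -/
theorem sq_mem_of_commute_invol {h g : G} (h2 : h ^ 2 = 1) (h1 : h ≠ 1) (hc : Commute g h) :
    g ^ 2 ∈ V := by
  classical
  -- roots of odd prime order modulo the centre
  have hprime : ∀ (r : ℕ), r.Prime → Odd r → ∀ y : G, Commute y h → y ^ r ∈ V → y ∈ V := by
    intro r hr hrodd y hy hyr
    by_contra hyV
    have hnot : ∀ i : ℕ, ¬ r ∣ i → y ^ i ∉ V := by
      intro i hi hiV
      refine hyV ?_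
      have hg := Int.gcd_eq_gcd_ab (i : ℤ) (r : ℤ)
      rw [Int.gcd_natCast_natCast, ((hr.coprime_iff_not_dvd).2 hi).symm.gcd_eq_one] at hg
      rw [← zpow_one y, show (1 : ℤ) = _ from hg, zpow_add, zpow_mul, zpow_mul, zpow_natCast,
        zpow_natCast]
      exact V.mul_mem (V.zpow_mem hiV _) (V.zpow_mem hyr _)
    obtain ⟨D, O, A, L⟩ := exists_lat (p := p) χ
    obtain ⟨ω₀, hω₀, -, hω₀inj, -⟩ := exists_omega H L C.cen
    have hD := H.d_eq L
    obtain ⟨c, hc'⟩ := IsAlgClosed.exists_pow_nat_eq (ω₀ ⟨y ^ r, hyr⟩) hr.pos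
    have hω0 : ω₀ ⟨y ^ r, hyr⟩ ≠ 0 := fun e => by
      have := map_one ω₀
      rw [← inv_mul_cancel (⟨y ^ r, hyr⟩ : V), map_mul, e, mul_zero] at this
      exact zero_ne_one this
    have hc0 : c ≠ 0 := fun e => hω0 (by rw [← hc', e, zero_pow hr.ne_zero])
    set T : Matrix (Fin D) (Fin D) ℂ := c⁻¹ • A y with hT
    have hTr : T ^ r = 1 := by
      rw [hT, smul_pow, ← map_pow, hω₀ ⟨y ^ r, hyr⟩, ← hc', smul_smul, ← mul_pow,
        inv_mul_cancel₀ hc0, one_pow, one_smul]
    set ε : Matrix (Fin D) (Fin D) ℂ := (r : ℂ)⁻¹ • ∑ j ∈ Finset.range r, T ^ j with hε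
    have hTε : T * ε = ε := by
      rw [hε, mul_smul_comm, Finset.mul_sum]
      congr 1
      simp only [← pow_succ']
      have h3 := Finset.sum_range_succ (fun j => T ^ j) r
      rw [Finset.sum_range_succ', hTr, pow_zero] at h3
      exact add_right_cancel h3
    have hTjε : ∀ j : ℕ, T ^ j * ε = ε := fun j => by
      induction j with
      | zero => rw [pow_zero, one_mul]
      | succ j ih => rw [pow_succ, mul_assoc, hTε, ih]
    have hr0 : (r : ℂ) ≠ 0 := Nat.cast_ne_zero.2 hr.ne_zero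
    have hεε : ε * ε = ε := by
      conv_lhs => arg 1; rw [hε]
      rw [smul_mul_assoc, Finset.sum_mul, Finset.sum_congr rfl fun j _ => hTjε j, Finset.sum_const,
        Finset.card_range, ← Nat.cast_smul_eq_nsmul ℂ, smul_smul, inv_mul_cancel₀ hr0, one_smul]
    have hVn : ∀ x ∈ V, ∀ n, x ^ n ∈ V := fun x hx n => V.pow_mem hx n
    have hzero : ∀ j ∈ Finset.range r, j ≠ 0 → χ.1 (y ^ j) = 0 ∧ χ.1 (y ^ j * h) = 0 := by
      intro j hj hj0
      have hjr : ¬ r ∣ 2 * j := fun hd => by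
        rcases hr.dvd_mul.1 hd with h' | h'
        · rw [(Nat.prime_dvd_prime_iff_eq hr Nat.prime_two).1 h'] at hrodd
          exact absurd hrodd (by decide)
        · exact hj0 (Nat.eq_zero_of_dvd_of_lt h' (Finset.mem_range.1 hj))
      have hsq : (y ^ j) ^ 2 ∉ V := by
        rw [← pow_mul, mul_comm]
        exact hnot _ hjr
      refine ⟨value_eq_zero H Q hZ hodd
          (regular_of_commute_invol H hodd S C h2 h1 (hy.pow_left j)) hsq,
        value_eq_zero H Q hZ hodd
          (regular_of_commute_invol H hodd S C h2 h1 ((hy.pow_left j).mul_left (Commute.refl h))) ?_⟩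
      rw [(hy.pow_left j).mul_pow, h2, mul_one]
      exact hsq
    have htr : ε.trace = (r : ℂ)⁻¹ * ((p - 2 : ℕ) : ℂ) := by
      rw [hε, Matrix.trace_smul, Matrix.trace_sum, smul_eq_mul, Finset.sum_eq_single 0]
      · rw [pow_zero, Matrix.trace_one, Fintype.card_fin, hD]
      · intro j hj hj0
        rw [hT, smul_pow, Matrix.trace_smul, ← map_pow, L.tr, (hzero j hj hj0).1, smul_zero]
      · intro h; exact absurd (Finset.mem_range.2 hr.pos) h
    have htrh : (ε * A h).trace = (r : ℂ)⁻¹ * (-1) := by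
      rw [hε, smul_mul_assoc, Matrix.trace_smul, Finset.sum_mul, Matrix.trace_sum, smul_eq_mul,
        Finset.sum_eq_single 0]
      · rw [pow_zero, one_mul, L.tr, value_invol H Q h2 h1]
      · intro j hj hj0
        rw [hT, smul_pow, smul_mul_assoc, Matrix.trace_smul, ← map_pow, ← map_mul, L.tr,
          (hzero j hj hj0).2, smul_zero]
      · intro h; exact absurd (Finset.mem_range.2 hr.pos) h
    have hcomm : Commute ε (A h) := by
      refine Commute.smul_left (Commute.sum_left _ _ _ fun j _ => Commute.pow_left ?_ _) _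
      exact (hy.map A).smul_left _
    set δ : Matrix (Fin D) (Fin D) ℂ := (2 : ℂ)⁻¹ • (1 + A h) * ε with hδ
    have hδδ : δ * δ = δ := by
      have hh : A h * A h = 1 := by rw [← map_mul, ← pow_two, h2, map_one]
      rw [hδ]
      simp only [smul_mul_assoc, mul_smul_comm, add_mul, one_mul, mul_add, smul_smul, smul_add]
      have e1 : ε * (A h * ε) = A h * ε := by rw [← mul_assoc, hcomm.eq, mul_assoc, hεε]
      have e2 : A h * ε * ε = A h * ε := by rw [mul_assoc, hεε]
      have e3 : A h * ε * (A h * ε) = ε := by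
        rw [mul_assoc (A h), e1, ← mul_assoc, hh, one_mul]
      rw [hεε, e1, e2, e3]
      match_scalars <;> ring
    have t1 : ε.trace = (ε.rank : ℂ) := trace_idem hεε
    have t2 : δ.trace = (δ.rank : ℂ) := trace_idem hδδ
    rw [htr] at t1
    have t3 : δ.trace = (2 : ℂ)⁻¹ * ((r : ℂ)⁻¹ * ((p - 2 : ℕ) : ℂ) + (r : ℂ)⁻¹ * (-1)) := by
      rw [hδ, smul_mul_assoc, add_mul, one_mul, Matrix.trace_smul, Matrix.trace_add,
        Matrix.trace_mul_comm (A h), htr, htrh, smul_eq_mul]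
    rw [t3] at t2
    have n1 : p - 2 = r * ε.rank := by
      have : ((p - 2 : ℕ) : ℂ) = ((r * ε.rank : ℕ) : ℂ) := by
        rw [Nat.cast_mul, ← t1, mul_inv_cancel_left₀ hr0]
      exact_mod_cast this
    have n2 : p - 3 = r * (2 * δ.rank) := by
      have h7 := H.seven_le
      have : ((p - 3 : ℕ) : ℂ) = ((r * (2 * δ.rank) : ℕ) : ℂ) := by
        have e : ((p - 2 : ℕ) : ℂ) = ((p - 3 : ℕ) : ℂ) + 1 := by
          rw [show p - 2 = p - 3 + 1 by omega]; push_cast; rfl
        push_cast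
        rw [← t2, e]
        field_simp
        ring
      exact_mod_cast this
    have h7 := H.seven_le
    have := Nat.dvd_sub (Dvd.intro ε.rank n1.symm : r ∣ p - 2) (Dvd.intro _ n2.symm : r ∣ p - 3)
    rw [show p - 2 - (p - 3) = 1 by omega] at this
    exact hr.ne_one (Nat.dvd_one.1 this)
  -- roots of odd order
  have hodd' : ∀ n : ℕ, Odd n → ∀ y : G, Commute y h → y ^ n ∈ V → y ∈ V := by
    intro n
    induction n using Nat.recOnMul with
    | zero => exact fun h0 => absurd h0 (by decide)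
    | one => intro _ y _ hy; rwa [pow_one] at hy
    | prime r hr => exact fun ho => hprime r hr ho
    | mul a c iha ihc =>
      intro ho y hy hyn
      obtain ⟨hoa, hoc⟩ := Nat.odd_mul.1 ho
      rw [pow_mul] at hyn
      exact iha hoa y hy (ihc hoc _ (hy.pow_left a) hyn)
  obtain ⟨s, o, ho, hso⟩ := Nat.exists_eq_two_pow_mul_odd (orderOf_pos g).ne'
  have h2pow : ∀ (t : ℕ) (y : G), y ^ (2 ^ t) ∈ V → y ^ 2 ∈ V := by
    intro t
    induction t with
    | zero => intro y hy; rw [pow_zero, pow_one] at hy; exact V.pow_mem hy 2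
    | succ t ih =>
      intro y hy
      rw [pow_succ', pow_mul] at hy
      have h3 := ih (y ^ 2) hy
      rw [← pow_mul] at h3
      exact sq_mem_of_four H Q hZ hodd h3
  have h3 := h2pow s (g ^ o) (by
    rw [← pow_mul, mul_comm, ← hso, pow_orderOf_eq_one]; exact V.one_mem)
  rw [← pow_mul, mul_comm, pow_mul] at h3
  exact hodd' o ho _ (hc.pow_left 2) h3

include H Q hZ hodd S C in
/-- The centraliser of an involution. -/
theorem centralizer_invol {h : G} (h2 : h ^ 2 = 1) (h1 : h ≠ 1) :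
    ∃ W : Subgroup G, (∀ g, g ∈ W ↔ g ^ 2 = 1 ∧ Commute g h) ∧
      Nat.card (Subgroup.centralizer ({h} : Set G)) = Nat.card W * Nat.card V := by
  have hcz : ∀ (g : G), ∀ v ∈ V, Commute g v := fun g v hv =>
    Subgroup.mem_center_iff.1 (hZ ▸ hv : v ∈ Subgroup.center G) g
  let W : Subgroup G :=
    { carrier := {g | g ^ 2 = 1 ∧ Commute g h}
      one_mem' := ⟨one_pow _, Commute.one_left h⟩
      mul_mem' := by
        rintro x y ⟨hx, hxh⟩ ⟨hy, hyh⟩
        refine ⟨?_, hxh.mul_left hyh⟩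
        have hv := sq_mem_of_commute_invol H Q hZ hodd S C h2 h1 (hxh.mul_left hyh)
        have hxi : x⁻¹ = x := inv_eq_of_mul_eq_one_right (by rw [← pow_two]; exact hx)
        have hyi : y⁻¹ = y := inv_eq_of_mul_eq_one_right (by rw [← pow_two]; exact hy)
        have e1 : x * (x * y) ^ 2 * x⁻¹ = (x * y) ^ 2 := by
          rw [(hcz x _ hv).eq, mul_inv_cancel_right]
        have e2 : x * (x * y) ^ 2 * x⁻¹ = ((x * y) ^ 2)⁻¹ := by
          rw [pow_two, hxi]
          simp only [mul_inv_rev, hxi, hyi, ← mul_assoc]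
          rw [← pow_two x, hx, one_mul]
        have e3 : (⟨(x * y) ^ 2, hv⟩ : V) = 1 := by
          refine sq_inj hodd (Subtype.ext ?_)
          rw [Subgroup.coe_pow, Subgroup.coe_pow, Subgroup.coe_one, one_pow, pow_two]
          exact mul_eq_one_iff_eq_inv.2 (e1.symm.trans e2)
        exact congrArg Subtype.val e3
      inv_mem' := fun {g} hg => ⟨by rw [inv_pow, hg.1, inv_one], hg.2.inv_left⟩ }
  refine ⟨W, fun g => Iff.rfl, ?_⟩
  rw [← Nat.card_prod]
  symm
  refine Nat.card_eq_of_bijective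
    (fun x : W × V => ⟨(x.1 : G) * (x.2 : G), Subgroup.mem_centralizer_singleton_iff.2
      ((x.1.2.2).mul_left (hcz h _ x.2.2).symm).eq⟩) ⟨?_, ?_⟩
  · rintro ⟨⟨a, ha, hah⟩, v⟩ ⟨⟨a', ha', hah'⟩, v'⟩ e
    have e' : a * (v : G) = a' * (v' : G) := congrArg Subtype.val e
    have : v = v' := by
      refine sq_inj hodd (Subtype.ext ?_)
      have := congrArg (· ^ 2) e'
      simpa [(hcz a _ v.2).mul_pow, (hcz a' _ v'.2).mul_pow, ha, ha'] using this
    subst this
    exact Prod.ext (Subtype.ext (mul_right_cancel e')) rfl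
  · rintro ⟨g, hg⟩
    have hgh : Commute g h := Subgroup.mem_centralizer_singleton_iff.1 hg
    have hg2 := sq_mem_of_commute_invol H Q hZ hodd S C h2 h1 hgh
    obtain ⟨w, hw⟩ := exists_root_in hodd (n := 2)
      (fun q hq hd => (Nat.prime_dvd_prime_iff_eq hq Nat.prime_two).1 hd) ⟨g ^ 2, hg2⟩
    have hwc : Commute g (w : G)⁻¹ := hcz g _ (V.inv_mem w.2)
    refine ⟨(⟨g * (w : G)⁻¹, ?_, hgh.mul_left (hcz h _ (V.inv_mem w.2)).symm⟩, w),
      Subtype.ext (inv_mul_cancel_right g _)⟩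
    rw [hwc.mul_pow, inv_pow, ← Subgroup.coe_pow, hw]
    exact mul_inv_cancel _

include H Q hZ hodd S C in
/-- The square-free part of the centraliser of an involution is a Sylow subgroup. -/
theorem card_invol_part {h : G} (h2 : h ^ 2 = 1) (h1 : h ≠ 1) {W : Subgroup G}
    (hW : ∀ g, g ∈ W ↔ g ^ 2 = 1 ∧ Commute g h) :
    Nat.card W = 2 ^ (Nat.card G).factorization 2 := by
  haveI : Fact (Nat.Prime 2) := ⟨Nat.prime_two⟩
  have hWp : IsPGroup 2 W := fun g => ⟨1, Subtype.ext (by rw [pow_one]; exact ((hW _).1 g.2).1)⟩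
  obtain ⟨T, hT⟩ := hWp.exists_le_sylow
  have hhW : h ∈ W := (hW h).2 ⟨h2, Commute.refl h⟩
  haveI : Nontrivial (T : Subgroup G) :=
    ⟨⟨⟨h, hT hhW⟩, 1, fun e => h1 (congrArg Subtype.val e)⟩⟩
  haveI : Nontrivial (Subgroup.center (T : Subgroup G)) := T.isPGroup'.center_nontrivial
  obtain ⟨t, ht⟩ := exists_prime_orderOf_dvd_card' (G := Subgroup.center (T : Subgroup G)) 2 (by
    obtain ⟨n, hn⟩ := ((T.isPGroup').to_subgroup (Subgroup.center (T : Subgroup G))).exists_card_eq
    rcases n with _ | n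
    · rw [pow_zero] at hn
      exact absurd hn Finite.one_lt_card.ne'
    · rw [hn, pow_succ]; exact dvd_mul_left 2 _)
  have ht1 : ((t : (T : Subgroup G)) : G) ≠ 1 := fun e => by
    have : t = 1 := Subtype.ext (Subtype.ext e)
    rw [this, orderOf_one] at ht
    exact absurd ht (by norm_num)
  have ht2 : ((t : (T : Subgroup G)) : G) ^ 2 = 1 :=
    congrArg (fun x : Subgroup.center (T : Subgroup G) => ((x : (T : Subgroup G)) : G))
      (show t ^ 2 = 1 from orderOf_dvd_iff_pow_eq_one.1 (dvd_of_eq ht))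
  have hsq : ∀ x ∈ (T : Subgroup G), x ^ 2 = 1 := by
    intro x hx
    have hc : Commute x ((t : (T : Subgroup G)) : G) :=
      congrArg Subtype.val (Subgroup.mem_center_iff.1 t.2 ⟨x, hx⟩)
    have h3 := sq_mem_of_commute_invol H Q hZ hodd S C ht2 ht1 hc
    obtain ⟨n, hn⟩ := T.isPGroup' ⟨x, hx⟩
    have hd : orderOf (⟨x ^ 2, h3⟩ : V) ∣ 2 ^ n := by
      refine orderOf_dvd_of_pow_eq_one (Subtype.ext ?_)
      show (x ^ 2) ^ 2 ^ n = 1
      rw [← pow_mul, mul_comm, pow_mul,
        show x ^ 2 ^ n = 1 from congrArg Subtype.val hn, one_pow]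
    have hco : (2 ^ n).Coprime (Nat.card V) :=
      Nat.Coprime.pow_left _ (Nat.coprime_two_left.2 hodd)
    have : orderOf (⟨x ^ 2, h3⟩ : V) = 1 :=
      Nat.eq_one_of_dvd_coprimes hco hd (orderOf_dvd_natCard _)
    exact congrArg Subtype.val (orderOf_eq_one_iff.1 this)
  have hTW : (T : Subgroup G) ≤ W := by
    intro x hx
    refine (hW x).2 ⟨hsq x hx, ?_⟩
    have hh := hT hhW
    have e1 : x⁻¹ = x := inv_eq_of_mul_eq_one_right (by rw [← pow_two]; exact hsq x hx)
    have e2 : h⁻¹ = h := inv_eq_of_mul_eq_one_right (by rw [← pow_two]; exact h2)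
    have e3 : (x * h)⁻¹ = x * h := inv_eq_of_mul_eq_one_right
      (by rw [← pow_two]; exact hsq _ ((T : Subgroup G).mul_mem hx hh))
    rw [mul_inv_rev, e1, e2] at e3
    exact e3.symm
  rw [show W = (T : Subgroup G) from le_antisymm hT hTW]
  exact T.card_eq_multiplicity

include H Q hZ hodd S C in
theorem card_invol_part_dvd {h : G} {W : Subgroup G}
    (hW : ∀ g, g ∈ W ↔ g ^ 2 = 1 ∧ Commute g h) : Nat.card W ∣ p - 1 := by
  classical
  have h7 := H.seven_le
  obtain ⟨D, O, A, L⟩ := exists_lat (p := p) χ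
  let _ : Fintype W := Fintype.ofFinite W
  set ε : Matrix (Fin D) (Fin D) ℂ := (Fintype.card W : ℂ)⁻¹ • ∑ w : W, A (w : G) with hε
  have hW0 : (Fintype.card W : ℂ) ≠ 0 := Nat.cast_ne_zero.2 Fintype.card_ne_zero
  have habs : ∀ w : W, A (w : G) * ε = ε := fun w => by
    rw [hε, mul_smul_comm, Finset.mul_sum]
    congr 1
    refine Fintype.sum_equiv (Equiv.mulLeft w) _ _ fun x => ?_
    rw [← map_mul]; rfl
  have hεε : ε * ε = ε := by
    conv_lhs => arg 1; rw [hε]
    rw [smul_mul_assoc, Finset.sum_mul, Finset.sum_congr rfl fun w _ => habs w, Finset.sum_const,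
      Finset.card_univ, ← Nat.cast_smul_eq_nsmul ℂ, smul_smul, inv_mul_cancel₀ hW0, one_smul]
  have ht : ε.trace = (ε.rank : ℂ) := trace_idem hεε
  have hpt : ∀ w : W, χ.1 (w : G) = (if w = 1 then ((p - 1 : ℕ) : ℂ) else 0) - 1 := by
    intro w
    split_ifs with e
    · subst e
      rw [Subgroup.coe_one, H.deg, show p - 1 = p - 2 + 1 by omega]
      push_cast
      ring
    · rw [value_invol H Q ((hW _).1 w.2).1 (fun e' => e (Subtype.ext e'))]
      ring
  rw [hε, Matrix.trace_smul, Matrix.trace_sum, smul_eq_mul,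
    Finset.sum_congr rfl fun w _ => (L.tr _).trans (hpt w), Finset.sum_sub_distrib,
    Finset.sum_ite_eq', if_pos (Finset.mem_univ _), Finset.sum_const, Finset.card_univ,
    nsmul_eq_mul, mul_one, ← hε] at ht
  refine ⟨ε.rank + 1, ?_⟩
  have : ((p - 1 : ℕ) : ℂ) = ((Nat.card W * (ε.rank + 1) : ℕ) : ℂ) := by
    rw [Nat.card_eq_fintype_card]
    push_cast
    rw [← ht]
    field_simp
    ring
  exact_mod_cast this

omit [Fintype V] in
/-- The order of the group. -/
theorem Hyp.count (H : Hyp p z χ) (hodd : Odd (Nat.card (Subgroup.center G))) :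
    (∃ a : ℕ, p - 1 = 2 ^ a) ∧
      Nat.card G = Nat.card (Subgroup.center G) * (p * (p - 1) * (p - 2)) := by
  classical
  have h7 := H.seven_le
  obtain ⟨V, K, S⟩ := exists_parts H.ord H.sq
  obtain ⟨D, O, A, L⟩ := exists_lat (p := p) χ
  have hZ := H.center_eq L S
  rw [hZ] at hodd ⊢
  let _ : Fintype V := Fintype.ofFinite V
  obtain ⟨ω, k, C⟩ := H.exists_core L S hodd
  obtain ⟨b, hb, hb4, -, hid⟩ := sq_identity H S C
  have Q : Sqd p χ b := ⟨hb, hb4, hid⟩
  -- the involutions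
  set I : Finset G := Finset.univ.filter fun h => h ^ 2 = 1 ∧ h ≠ 1 with hI
  have hJ : Nat.card {h : G // h ^ 2 = 1 ∧ h ≠ 1} = I.card := by
    rw [Nat.card_eq_fintype_card, Fintype.card_subtype]
  have hcount := norm_count H Q hZ hodd S C
  rw [card_sq_mem hZ hodd, hJ] at hcount
  set q := 2 ^ (Nat.card G).factorization 2 with hq
  have hqd : ∀ h ∈ I, Nat.card (Subgroup.centralizer ({h} : Set G)) = q * Nat.card V ∧
      q ∣ p - 1 := by
    intro h hh
    simp only [hI, Finset.mem_filter, Finset.mem_univ, true_and] at hh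
    obtain ⟨W, hW, hcard⟩ := centralizer_invol H Q hZ hodd S C hh.1 hh.2
    have := card_invol_part H Q hZ hodd S C hh.1 hh.2 hW
    exact ⟨by rw [hcard, this], by rw [hq, ← this]; exact card_invol_part_dvd H Q hZ hodd S C hW⟩
  obtain ⟨h₀, hh₀⟩ : I.Nonempty := by
    have hex : (-1 : ZMod p) ∈ H30.conjExps p z := by rw [C.exps]; simp
    obtain ⟨g, hg⟩ := S.mem_conjExps.1 hex
    obtain ⟨x, hx⟩ : ∃ x : G, orderOf x = 2 := by
      refine exists_prime_orderOf_dvd_card' 2 ?_
      by_contra h2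
      have hgo : Odd (orderOf g) := Nat.not_even_iff_odd.1 fun he =>
        h2 ((even_iff_two_dvd.1 he).trans (orderOf_dvd_natCard g))
      obtain ⟨t, ht⟩ := hgo
      have hg2 : Commute (g ^ 2) z := by
        have e : g ^ 2 * z * (g ^ 2)⁻¹ = z := by
          rw [pow_two, show g * g * z * (g * g)⁻¹ = g * (g * z * g⁻¹) * g⁻¹ by group, hg, ← conj_pow,
            hg, pow_val_mul H.ord, neg_mul_neg, one_mul, ZMod.val_one, pow_one]
        exact mul_inv_eq_iff_eq_mul.1 e
      have hgz : Commute g z := by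
        have e : g = (g ^ 2) ^ (t + 1) := by
          rw [← pow_mul, show 2 * (t + 1) = orderOf g + 1 by omega, pow_succ, pow_orderOf_eq_one,
            one_mul]
        rw [e]
        exact hg2.pow_left _
      rw [hgz.eq, mul_inv_cancel_right] at hg
      have h' : z ^ (1 : ZMod p).val = z ^ (-1 : ZMod p).val := by
        rw [ZMod.val_one, pow_one]; exact hg
      have h3 := (zpow_val_eq_iff H.ord).1 h'
      have h4 : ((2 : ℕ) : ZMod p) = 0 := by push_cast; linear_combination h3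
      have := Nat.le_of_dvd two_pos ((CharP.cast_eq_zero_iff (ZMod p) p 2).1 h4)
      omega
    refine ⟨x, ?_⟩
    simp only [hI, Finset.mem_filter, Finset.mem_univ, true_and]
    refine ⟨hx ▸ pow_orderOf_eq_one x, fun e => ?_⟩
    rw [e, orderOf_one] at hx
    exact absurd hx (by norm_num)
  set c₀ := (Finset.univ.filter fun g : G => ConjClasses.mk g = ConjClasses.mk h₀).card with hc
  have hc₀ : ∀ h ∈ I,
      (Finset.univ.filter fun g : G => ConjClasses.mk g = ConjClasses.mk h).card = c₀ := by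
    intro h hh
    refine Nat.eq_of_mul_eq_mul_right (m := q * Nat.card V)
      (Nat.mul_pos (Nat.two_pow_pos _) Nat.card_pos) ?_
    conv_lhs => rw [← (hqd h hh).1]
    conv_rhs => rw [← (hqd h₀ hh₀).1]
    rw [hc, H26.card_class_mul_card_centralizer, H26.card_class_mul_card_centralizer]
  have hG : Nat.card G = c₀ * (q * Nat.card V) := by
    rw [← H26.card_class_mul_card_centralizer h₀, hc₀ h₀ hh₀, (hqd h₀ hh₀).1]
  have hIcard : I.card = (I.image ConjClasses.mk).card * c₀ := by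
    rw [Finset.card_eq_sum_card_image ConjClasses.mk I, ← smul_eq_mul, ← Finset.sum_const]
    refine Finset.sum_congr rfl fun c hc => ?_
    obtain ⟨h, hh, rfl⟩ := Finset.mem_image.1 hc
    rw [← hc₀ h hh]
    congr 1
    ext g
    simp only [hI, Finset.mem_filter, Finset.mem_univ, true_and, and_iff_right_iff_imp]
    intro e
    simp only [hI, Finset.mem_filter, Finset.mem_univ, true_and] at hh
    obtain ⟨y, hy⟩ := isConj_iff.1 (ConjClasses.mk_eq_mk_iff_isConj.1 e)
    rw [← hy, conj_pow, conj_eq_one_iff, ne_eq, conj_eq_one_iff] at hh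
    exact hh
  set n := (I.image ConjClasses.mk).card with hn
  have hn0 : 0 < n := Finset.card_pos.2 ⟨_, Finset.mem_image_of_mem _ hh₀⟩
  have heq : p * (p - 2) ^ 2 + p * n * c₀ = 2 * q * c₀ := by
    refine Nat.eq_of_mul_eq_mul_right (Nat.card_pos (α := V)) ?_
    rw [hIcard, hG] at hcount
    linear_combination hcount
  have hqle := Nat.le_of_dvd (by omega) (hqd h₀ hh₀).2
  have hpos : 0 < p * (p - 2) ^ 2 := Nat.mul_pos (by omega) (Nat.pow_pos (by omega))
  have hlt : p * n < 2 * q := Nat.lt_of_mul_lt_mul_right (a := c₀) (by omega)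
  have hn1 : n = 1 := by
    by_contra h
    have : p * 2 ≤ p * n := Nat.mul_le_mul_left _ (by omega)
    omega
  rw [hn1, mul_one] at hlt heq
  obtain ⟨t, ht⟩ := (hqd h₀ hh₀).2
  have ht1 : t = 1 := by
    by_contra h
    rcases Nat.lt_or_ge t 1 with h' | h'
    · rw [show t = 0 by omega, mul_zero] at ht; omega
    · have : q * 2 ≤ q * t := Nat.mul_le_mul_left _ (by omega)
      omega
  rw [ht1, mul_one] at ht
  refine ⟨⟨_, ht⟩, ?_⟩
  have hc' : c₀ = p * (p - 2) := by
    refine Nat.eq_of_mul_eq_mul_right (m := p - 2) (by omega) ?_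
    have e : 2 * q = p + (p - 2) := by omega
    rw [e, add_mul] at heq
    linear_combination -heq
  rw [hG, hc', ← ht]
  ring

end Cfsg.Agent.H39.SmallDeg
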