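import Mathlib
import Cfsg.Agent.H39.SmallDeg.Count
import Cfsg.Agent.H31.FewSylow.Perfect

/-!
The derived subgroup of a group with a faithful irreducible character of degree `p - 2`: it keeps
the hypotheses, its centre has odd order, it is perfect and it covers the group modulo the centre.
-/

set_option autoImplicit false
set_option linter.unusedSectionVars false

namespace Cfsg.Agent.H39.SmallDeg

open Cfsg.Agent.H31.Defect
open scoped commutatorElement Matrix

variable {p : ℕ} [hp : Fact p.Prime] {G : Type*} [Group G] [Finite G] {z : G}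
  {χ : Cfsg.IrrCharacter G}

theorem two_ne_zero_zmod (h : 5 < p) : ((2 : ℕ) : ZMod p) ≠ 0 := fun h2 => by
  have := Nat.le_of_dvd two_pos ((CharP.cast_eq_zero_iff (ZMod p) p 2).1 h2)
  omega

/-- The automiser of `z`. -/
theorem Hyp.exists_inverting (H : Hyp p z χ) :
    (∃ u : G, u * z * u⁻¹ = z ^ (-1 : ZMod p).val) ∧
      ∀ n ∈ Subgroup.normalizer ((Subgroup.zpowers z : Subgroup G) : Set G),
        n * z * n⁻¹ = z ∨ n * z * n⁻¹ = z ^ (-1 : ZMod p).val := by
  classical
  let _ : Fintype G := Fintype.ofFinite G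
  obtain ⟨V, K, S⟩ := exists_parts H.ord H.sq
  obtain ⟨d, O, A, L⟩ := exists_lat (p := p) χ
  let _ : Fintype V := Fintype.ofFinite V
  obtain ⟨k, -, -, hC⟩ := H.shape L S
  refine ⟨S.mem_conjExps.1 (by rw [hC]; simp), fun n hn => ?_⟩
  obtain ⟨a, ha⟩ := S.exists_autExp hn
  have ha' : a ∈ H30.conjExps p z := S.mem_conjExps.2 ⟨n, ha⟩
  rw [hC, Finset.mem_insert, Finset.mem_singleton] at ha'
  rcases ha' with rfl | rfl
  · left; rwa [ZMod.val_one, pow_one] at ha
  · right; exact ha

/-- An element centralising `z` is a power of `z` times a central element. -/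
theorem Hyp.centralizer_cover (H : Hyp p z χ) {x : G} (hx : Commute x z) :
    ∃ (i : ℕ) (c : G), c ∈ Subgroup.center G ∧ x = z ^ i * c := by
  classical
  let _ : Fintype G := Fintype.ofFinite G
  obtain ⟨V, K, S⟩ := exists_parts H.ord H.sq
  obtain ⟨d, O, A, L⟩ := exists_lat (p := p) χ
  obtain ⟨i, v, hv, e⟩ := S.cover x (Subgroup.mem_centralizer_singleton_iff.2 hx.eq)
  exact ⟨i, v, H.V_le_center L S hv, e⟩

theorem Hyp.mem_commutator (H : Hyp p z χ) : z ∈ commutator G := by
  obtain ⟨⟨u, hu⟩, -⟩ := H.exists_inverting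
  have hinv : z⁻¹ = z ^ (-1 : ZMod p).val := by
    refine inv_eq_of_mul_eq_one_right ?_
    nth_rewrite 1 [show z = z ^ (1 : ZMod p).val by rw [ZMod.val_one, pow_one]]
    rw [← pow_val_add H.ord, add_neg_cancel, ZMod.val_zero, pow_zero]
  have h1 : z ^ ((-1 : ZMod p) + -1).val ∈ commutator G := by
    have : ⁅u, z⁆ ∈ commutator G :=
      Subgroup.commutator_mem_commutator (Subgroup.mem_top u) (Subgroup.mem_top z)
    rwa [commutatorElement_def, hu, hinv, ← pow_val_add H.ord] at this
  have h2 := (commutator G).pow_mem h1 (((-1 : ZMod p) + -1)⁻¹).val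
  rwa [pow_val_mul H.ord, mul_inv_cancel₀, ZMod.val_one, pow_one] at h2
  intro e
  refine two_ne_zero_zmod (p := p) H.five ?_
  push_cast
  linear_combination -e

/-- Decomposition along the normaliser. -/
theorem Hyp.frattini (H : Hyp p z χ) (g : G) :
    ∃ n ∈ Subgroup.normalizer ((Subgroup.zpowers z : Subgroup G) : Set G),
      ∃ k ∈ commutator G, g = n * k := by
  let _ : Fintype G := Fintype.ofFinite G
  obtain ⟨P, hP⟩ := H31.FewSylow.sylow_eq_zpowers H.sq H.ord
  have h := Sylow.normalizer_sup_eq_top' (N := commutator G) P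
    (by rw [hP]; exact Subgroup.zpowers_le.2 H.mem_commutator)
  have hg : g ∈ Subgroup.normalizer ((P : Subgroup G) : Set G) ⊔ commutator G := by
    rw [show Subgroup.normalizer ((P : Subgroup G) : Set G) ⊔ commutator G = ⊤ from h]
    exact Subgroup.mem_top g
  rw [Subgroup.mem_sup_of_normal_right, hP] at hg
  obtain ⟨n, hn, k, hk, e⟩ := hg
  exact ⟨n, hn, k, hk, e.symm⟩

variable {d : ℕ} {O : ValuationSubring ℂ} {A : G →* Matrix (Fin d) (Fin d) ℂ}

/-- The derived subgroup acts irreducibly. -/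
theorem Hyp.schur_derived (H : Hyp p z χ) (L : Lat p χ.1 O A)
    {Φ : Matrix (Fin d) (Fin d) ℂ} (hΦ : ∀ k ∈ commutator G, Commute Φ (A k)) :
    ∃ c : ℂ, Φ = c • 1 := by
  classical
  let _ : Fintype G := Fintype.ofFinite G
  obtain ⟨V, K, S⟩ := exists_parts H.ord H.sq
  obtain ⟨k₀, -, hmult, -⟩ := H.shape L S
  obtain ⟨⟨u, hu⟩, hN⟩ := H.exists_inverting
  have hAu : A u⁻¹ * A u = 1 := by rw [← map_mul, inv_mul_cancel, map_one]
  have hAu' : A u * A u⁻¹ = 1 := by rw [← map_mul, mul_inv_cancel, map_one]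
  have hcentral : ∀ c ∈ Subgroup.center G, ∀ M : Matrix (Fin d) (Fin d) ℂ, Commute M (A c) := by
    intro c hc M
    obtain ⟨w, hw⟩ := L.schur (A c) fun g => by
      show A c * A g = A g * A c
      rw [← map_mul, ← map_mul, Subgroup.mem_center_iff.1 hc g]
    rw [hw]
    exact (Commute.one_right M).smul_right w
  -- commuting with the derived subgroup and with the inverting element suffices
  have hall : ∀ M : Matrix (Fin d) (Fin d) ℂ, (∀ k ∈ commutator G, Commute M (A k)) →
      Commute M (A u) → ∀ g, Commute M (A g) := by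
    intro M hM hMu g
    obtain ⟨n, hn, k, hk, rfl⟩ := H.frattini g
    rw [map_mul]
    refine Commute.mul_right ?_ (hM k hk)
    have hz : ∀ x : G, Commute x z → Commute M (A x) := by
      intro x hx
      obtain ⟨i, c, hc, rfl⟩ := H.centralizer_cover hx
      rw [map_mul, map_pow]
      exact ((hM z H.mem_commutator).pow_right i).mul_right (hcentral c hc M)
    rcases hN n hn with e | e
    · exact hz n (mul_inv_eq_iff_eq_mul.1 e)
    · have hx : Commute (u⁻¹ * n) z := by
        refine mul_inv_eq_iff_eq_mul.1 ?_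
        calc u⁻¹ * n * z * (u⁻¹ * n)⁻¹ = u⁻¹ * (n * z * n⁻¹) * u := by group
          _ = u⁻¹ * (u * z * u⁻¹) * u := by rw [e, hu]
          _ = z := by group
      rw [show n = u * (u⁻¹ * n) by group, map_mul]
      exact hMu.mul_right (hz _ hx)
  set Ψ := A u * Φ * A u⁻¹ with hΨ
  have hΨc : ∀ k ∈ commutator G, Commute Ψ (A k) := by
    intro k hk
    have h1 := hΦ _ ((inferInstance : (commutator G).Normal).conj_mem k hk u⁻¹)
    rw [inv_inv, map_mul, map_mul] at h1
    show A u * Φ * A u⁻¹ * A k = A k * (A u * Φ * A u⁻¹)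
    calc A u * Φ * A u⁻¹ * A k = A u * (Φ * (A u⁻¹ * A k * A u)) * A u⁻¹ := by
          simp only [mul_assoc, hAu', mul_one]
      _ = A u * ((A u⁻¹ * A k * A u) * Φ) * A u⁻¹ := by rw [h1.eq]
      _ = A u * A u⁻¹ * A k * A u * Φ * A u⁻¹ := by simp only [mul_assoc]
      _ = _ := by rw [hAu', one_mul]; simp only [mul_assoc]
  have hu2 : Commute Φ (A (u * u)) := by
    have hx : Commute (u * u) z := by
      refine mul_inv_eq_iff_eq_mul.1 ?_
      rw [show u * u * z * (u * u)⁻¹ = u * (u * z * u⁻¹) * u⁻¹ by group, hu, ← conj_pow, hu,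
        pow_val_mul H.ord, neg_mul_neg, one_mul, ZMod.val_one, pow_one]
    obtain ⟨i, c, hc, e⟩ := H.centralizer_cover hx
    rw [e, map_mul, map_pow]
    exact ((hΦ z H.mem_commutator).pow_right i).mul_right (hcentral c hc Φ)
  have hΨu : A u * Ψ * A u⁻¹ = Φ := by
    calc A u * Ψ * A u⁻¹ = A (u * u) * Φ * A (u * u)⁻¹ := by
          rw [hΨ, mul_inv_rev, map_mul, map_mul]; simp only [mul_assoc]
      _ = Φ := by rw [← hu2.eq, mul_assoc, ← map_mul, mul_inv_cancel, map_one, mul_one]
  obtain ⟨c, hc⟩ := L.schur (Φ + Ψ) (hall _ (fun k hk => (hΦ k hk).add_left (hΨc k hk)) (by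
    show (Φ + Ψ) * A u = A u * (Φ + Ψ)
    calc (Φ + Ψ) * A u = (A u * Ψ * A u⁻¹ + A u * Φ * A u⁻¹) * A u := by rw [hΨu, ← hΨ]
      _ = A u * (Ψ + Φ) * (A u⁻¹ * A u) := by
          simp only [mul_add, add_mul, mul_assoc]
      _ = _ := by rw [hAu, mul_one, add_comm]))
  set T := Φ - (c / 2) • (1 : Matrix (Fin d) (Fin d) ℂ) with hT
  have hTu : A u * T * A u⁻¹ = -T := by
    rw [hT, mul_sub, sub_mul, ← hΨ, mul_smul_comm, smul_mul_assoc, mul_one, hAu',
      eq_sub_of_add_eq' hc]
    module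
  have hTc : ∀ k ∈ commutator G, Commute T (A k) := fun k hk =>
    (hΦ k hk).sub_left ((Commute.one_left _).smul_left _)
  obtain ⟨e, he⟩ := L.schur (T * T) (hall _ (fun k hk => (hTc k hk).mul_left (hTc k hk)) (by
    show T * T * A u = A u * (T * T)
    calc T * T * A u = (A u * T * A u⁻¹) * (A u * T * A u⁻¹) * A u := by rw [hTu, neg_mul_neg]
      _ = A u * T * (A u⁻¹ * A u) * T * (A u⁻¹ * A u) := by simp only [mul_assoc]
      _ = _ := by rw [hAu, mul_one, mul_one, mul_assoc]))
  refine ⟨c / 2, sub_eq_zero.1 (hT ▸ ?_)⟩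
  have htr : T.trace = 0 := by
    have h : T.trace = (-T).trace := by
      rw [← hTu, Matrix.trace_mul_cycle, hAu, one_mul]
    rw [Matrix.trace_neg] at h
    exact CharZero.eq_neg_self_iff.1 h
  rcases eq_or_ne e 0 with he0 | he0
  · rw [he0, zero_smul] at he
    have hTz : Commute T (A z) := hTc z H.mem_commutator
    rw [← mul_one T, ← sum_eProj (p := p) (z := z) (A := A), Finset.mul_sum]
    refine Finset.sum_eq_zero fun j _ => ?_
    have hTE : Commute T (eProj z A j) := by
      refine Commute.smul_right (Commute.sum_right _ _ _ fun i _ => Commute.smul_right ?_ _) _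
      rw [map_pow]
      exact hTz.pow_right _
    by_cases hj : eProj z A j = 0
    · rw [hj, mul_zero]
    by_contra hM
    obtain ⟨x, hx⟩ := exists_mulVec_ne hM
    have hle : mult z A j ≤ 1 := by rw [hmult]; split_ifs <;> norm_num
    have hr1 : Module.finrank ℂ (LinearMap.range (eProj z A j).mulVecLin) = 1 := by
      have h0 : mult z A j ≠ 0 := fun h => hj ((mult_eq_zero_iff H.ord).1 h)
      exact le_antisymm hle (Nat.one_le_iff_ne_zero.2 h0)
    obtain ⟨⟨w, y, hy⟩, hw0, hall'⟩ := finrank_eq_one_iff'.1 hr1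
    rw [Matrix.mulVecLin_apply] at hy
    obtain ⟨a, ha⟩ := hall' ⟨eProj z A j *ᵥ x, x, rfl⟩
    obtain ⟨b, hb⟩ := hall' ⟨T *ᵥ w, T *ᵥ y, by
      rw [Matrix.mulVecLin_apply, ← hy, Matrix.mulVec_mulVec, Matrix.mulVec_mulVec, hTE.eq]⟩
    have ha' : a • w = eProj z A j *ᵥ x := congrArg Subtype.val ha
    have hb' : b • w = T *ᵥ w := congrArg Subtype.val hb
    have hwne : w ≠ 0 := fun h => hw0 (Subtype.ext h)
    have hb0 : b * b = 0 := by
      have h2 : (T * T) *ᵥ w = (b * b) • w := by
        rw [← Matrix.mulVec_mulVec, ← hb', Matrix.mulVec_smul, ← hb', smul_smul]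
      rw [he, Matrix.zero_mulVec, eq_comm, smul_eq_zero] at h2
      exact h2.resolve_right hwne
    rw [← Matrix.mulVec_mulVec, ← ha', Matrix.mulVec_smul, ← hb', mul_self_eq_zero.1 hb0,
      zero_smul, smul_zero] at hx
    exact hx rfl
  · exfalso
    obtain ⟨s, hs⟩ := IsAlgClosed.exists_pow_nat_eq e two_pos
    have hs0 : s ≠ 0 := fun h => he0 (by rw [← hs, h, zero_pow two_ne_zero])
    set ε : Matrix (Fin d) (Fin d) ℂ := (2 : ℂ)⁻¹ • (1 + s⁻¹ • T) with hε
    have hεε : ε * ε = ε := by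
      rw [hε]
      simp only [smul_mul_assoc, mul_smul_comm, add_mul, one_mul, mul_add, mul_one, he, smul_smul,
        smul_add]
      match_scalars <;> field_simp <;> (try rw [← hs]) <;> ring
    have ht := trace_idem hεε
    rw [hε, Matrix.trace_smul, Matrix.trace_add, Matrix.trace_smul, htr, smul_zero, add_zero,
      Matrix.trace_one, Fintype.card_fin, smul_eq_mul, ← hε] at ht
    have h2 : d = 2 * ε.rank := by
      have : (d : ℂ) = ((2 * ε.rank : ℕ) : ℂ) := by
        push_cast
        rw [← ht]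
        ring
      exact_mod_cast this
    have hd := H.d_eq L
    obtain ⟨q, hq⟩ := hp.out.odd_of_ne_two (show p ≠ 2 by have := H.five; omega)
    have := H.five
    omega

/-- The restriction to the derived subgroup. -/
theorem Hyp.derived (H : Hyp p z χ) :
    ∃ (w : commutator G) (ψ : Cfsg.IrrCharacter (commutator G)),
      (w : G) = z ∧ (∀ k, ψ.1 k = χ.1 (k : G)) ∧ Hyp p w ψ := by
  classical
  obtain ⟨d, O, A, L⟩ := exists_lat (p := p) χ
  let σ : Representation ℂ (commutator G) (Fin d → ℂ) :=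
    Matrix.toLinAlgEquiv'.toMonoidHom.comp (A.comp (commutator G).subtype)
  have hσ : σ.character = fun k : commutator G => χ.1 (k : G) := funext fun k => by
    rw [← L.tr]
    exact Matrix.trace_toLin'_eq (A k)
  let _ : Fintype (commutator G) := Fintype.ofFinite _
  have hd : 0 < d := by have := H.d_eq L; have := H.five; omega
  have hirr : Cfsg.IsIrrCharacter (commutator G) σ.character := by
    refine H26.isIrrCharacter_of_norm_one (H26.isCharacter_char σ) ?_
    rw [H26.classInner_char_eq_finrank σ σ]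
    have : Nonempty (Fin d) := ⟨⟨0, hd⟩⟩
    have h1 : Module.finrank ℂ (σ.IntertwiningMap σ) = 1 := by
      refine finrank_eq_one (Representation.IntertwiningMap.id σ) ?_ fun f => ?_
      · intro h
        have := congrArg (fun g : σ.IntertwiningMap σ => g (fun _ => 1) ⟨0, hd⟩) h
        simp [← Representation.IntertwiningMap.toLinearMap_apply] at this
      · obtain ⟨c, hc⟩ := H.schur_derived L (Φ := LinearMap.toMatrix' f.toLinearMap)
          fun k hk => by
            have h := f.isIntertwining' ⟨k, hk⟩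
            have e : LinearMap.toMatrix' (σ ⟨k, hk⟩) = A k := LinearMap.toMatrix'_toLin' (A k)
            show _ * A k = A k * _
            rw [← e, ← LinearMap.toMatrix'_comp, ← LinearMap.toMatrix'_comp, h]
        refine ⟨c, ?_⟩
        have hf : f.toLinearMap = c • LinearMap.id := by
          apply LinearMap.toMatrix'.injective
          rw [hc, map_smul, LinearMap.toMatrix'_id]
        ext : 1
        rw [hf]
        rfl
    rw [h1, Nat.cast_one]
  refine ⟨⟨z, H.mem_commutator⟩, ⟨σ.character, hirr⟩, rfl, fun k => congrFun hσ k, ?_, ?_, ?_, ?_,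
    ?_, H.five⟩
  · exact (Subgroup.orderOf_mk _ _).trans H.ord
  · exact fun h => H.sq (h.trans (Subgroup.card_subgroup_dvd_card _))
  · intro hN
    refine H.notN ⟨fun x hx g => ?_⟩
    obtain ⟨n, hn, k, hk, rfl⟩ := H.frattini g
    obtain ⟨i, rfl⟩ := hx
    obtain ⟨j, hj⟩ := hN.conj_mem _ (Subgroup.zpow_mem_zpowers (⟨z, H.mem_commutator⟩ : commutator G) i)
      ⟨k, hk⟩
    have e : z ^ j = k * z ^ i * k⁻¹ := by
      simpa using congrArg Subtype.val hj
    show n * k * z ^ i * (n * k)⁻¹ ∈ Subgroup.zpowers z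
    rw [show n * k * z ^ i * (n * k)⁻¹ = n * (k * z ^ i * k⁻¹) * n⁻¹ by group, ← e]
    exact (Subgroup.mem_normalizer_iff.1 hn _).1 (Subgroup.zpow_mem_zpowers z j)
  · intro k hk
    have hk' : χ.1 (k : G) = χ.1 1 := by
      have := (congrFun hσ k).symm.trans (hk.trans (congrFun hσ 1))
      simpa using this
    exact Subtype.ext (H.faith _ hk')
  · show σ.character 1 = _
    rw [congrFun hσ 1, Subgroup.coe_one, H.deg]

/-- The centre of the derived subgroup is central and of odd order. -/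
theorem Hyp.center_derived (H : Hyp p z χ) :
    (∀ c ∈ Subgroup.center (commutator G), (c : G) ∈ Subgroup.center G ∧ c ^ (p - 2) = 1) ∧
      Odd (Nat.card (Subgroup.center (commutator G))) := by
  classical
  obtain ⟨d, O, A, L⟩ := exists_lat (p := p) χ
  have hd := H.d_eq L
  have h5 := H.five
  have key : ∀ c ∈ Subgroup.center (commutator G),
      (c : G) ∈ Subgroup.center G ∧ c ^ (p - 2) = 1 := by
    intro c hc
    obtain ⟨w, hw⟩ := H.schur_derived L (Φ := A (c : G)) fun k hk => by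
      show A (c : G) * A k = A k * A (c : G)
      rw [← map_mul, ← map_mul]
      have h := congrArg Subtype.val (Subgroup.mem_center_iff.1 hc ⟨k, hk⟩)
      rw [Subgroup.coe_mul, Subgroup.coe_mul] at h
      rw [h]
    refine ⟨H.central_of_scalar L hw, ?_⟩
    have hdet : (A (c : G)).det = 1 := by
      have h := Abelianization.commutator_subset_ker
        (Matrix.detMonoidHom.comp A).toHomUnits c.2
      exact congrArg Units.val (MonoidHom.mem_ker.1 h)
    rw [hw, Matrix.det_smul, Matrix.det_one, mul_one, Fintype.card_fin, hd] at hdet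
    refine Subtype.ext (H.eq_one_of_apply L ?_)
    rw [Subgroup.coe_pow, map_pow, hw, smul_pow, one_pow, hdet, one_smul]
  refine ⟨key, ?_⟩
  by_contra he
  rw [Nat.not_odd_iff_even, even_iff_two_dvd] at he
  haveI : Fact (Nat.Prime 2) := ⟨Nat.prime_two⟩
  obtain ⟨c, hc⟩ := exists_prime_orderOf_dvd_card' (G := Subgroup.center (commutator G)) 2 he
  have h1 : orderOf c ∣ p - 2 := orderOf_dvd_of_pow_eq_one (Subtype.ext ((key _ c.2).2))
  rw [hc] at h1
  obtain ⟨q, hq⟩ := hp.out.odd_of_ne_two (show p ≠ 2 by omega)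
  omega

/-- The derived subgroup covers the group modulo the centre. -/
theorem Hyp.derived_cover (H : Hyp p z χ) (g : G) :
    ∃ k ∈ commutator G, ∃ c ∈ Subgroup.center G, g = k * c := by
  classical
  obtain ⟨w, ψ, hw, -, H'⟩ := H.derived
  obtain ⟨-, hN⟩ := H.exists_inverting
  obtain ⟨⟨u, hu⟩, -⟩ := H'.exists_inverting
  have hu' : (u : G) * z * (u : G)⁻¹ = z ^ (-1 : ZMod p).val := by
    rw [← hw]
    simpa using congrArg Subtype.val hu
  obtain ⟨n, hn, k, hk, rfl⟩ := H.frattini g
  have key : ∀ x : G, Commute x z →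
      ∃ a ∈ commutator G, ∃ c ∈ Subgroup.center G, x = a * c := by
    intro x hx
    obtain ⟨i, c, hc, rfl⟩ := H.centralizer_cover hx
    exact ⟨_, (commutator G).pow_mem H.mem_commutator i, c, hc, rfl⟩
  rcases hN n hn with e | e
  · obtain ⟨a, ha, c, hc, rfl⟩ := key n (mul_inv_eq_iff_eq_mul.1 e)
    refine ⟨a * k, (commutator G).mul_mem ha hk, c, hc, ?_⟩
    rw [mul_assoc, ← Subgroup.mem_center_iff.1 hc k, ← mul_assoc]
  · have hx : Commute ((u : G)⁻¹ * n) z := by
      refine mul_inv_eq_iff_eq_mul.1 ?_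
      calc (u : G)⁻¹ * n * z * ((u : G)⁻¹ * n)⁻¹ = (u : G)⁻¹ * (n * z * n⁻¹) * u := by group
        _ = (u : G)⁻¹ * ((u : G) * z * (u : G)⁻¹) * u := by rw [e, hu']
        _ = z := by group
    obtain ⟨a, ha, c, hc, e2⟩ := key _ hx
    refine ⟨(u : G) * a * k,
      (commutator G).mul_mem ((commutator G).mul_mem u.2 ha) hk, c, hc, ?_⟩
    rw [mul_assoc ((u : G) * a), Subgroup.mem_center_iff.1 hc k, ← mul_assoc,
      mul_assoc (u : G) a c, ← e2, mul_inv_cancel_left]

/-- The derived subgroup is perfect. -/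
theorem Hyp.derived_perfect (H : Hyp p z χ) : commutator (commutator G) = ⊤ := by
  refine top_le_iff.1 fun x _ => ?_
  suffices h : commutator G ≤ (commutator (commutator G)).map (commutator G).subtype by
    obtain ⟨y, hy, e⟩ := h x.2
    rwa [← Subtype.ext e]
  conv_lhs => rw [commutator_def]
  rw [Subgroup.commutator_le]
  intro g _ g' _
  obtain ⟨k, hk, c, hc, rfl⟩ := H.derived_cover g
  obtain ⟨k', hk', c', hc', rfl⟩ := H.derived_cover g'
  refine ⟨⁅(⟨k, hk⟩ : commutator G), ⟨k', hk'⟩⁆,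
    Subgroup.commutator_mem_commutator (Subgroup.mem_top _) (Subgroup.mem_top _), ?_⟩
  rw [map_commutatorElement]
  show ⁅k, k'⁆ = ⁅k * c, k' * c'⁆
  rw [commutatorElement_def, commutatorElement_def, mul_inv_rev, mul_inv_rev]
  have h1 := Subgroup.mem_center_iff.1 hc
  have h2 := Subgroup.mem_center_iff.1 hc'
  calc k * k' * k⁻¹ * k'⁻¹ = k * k' * (c * (c⁻¹ * k⁻¹)) * (c' * (c'⁻¹ * k'⁻¹)) := by group
    _ = k * (k' * c) * (c⁻¹ * k⁻¹) * c' * (c'⁻¹ * k'⁻¹) := by group
    _ = k * (c * k') * (c⁻¹ * k⁻¹) * c' * (c'⁻¹ * k'⁻¹) := by rw [h1 k']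
    _ = k * c * k' * ((c⁻¹ * k⁻¹) * c') * (c'⁻¹ * k'⁻¹) := by group
    _ = k * c * k' * (c' * (c⁻¹ * k⁻¹)) * (c'⁻¹ * k'⁻¹) := by rw [h2]
    _ = _ := by group

end Cfsg.Agent.H39.SmallDeg
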