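import Mathlib
import Cfsg.Agent.H39.SmallDeg.Derived
import Cfsg.Agent.H1.SLTwoElements
import Cfsg.Agent.S4701

/-!
A group with a non-normal Sylow subgroup of prime order `p` and a faithful irreducible character
of degree `p - 2` is the product of `SL(2, p - 1)` with its centre.
-/

set_option autoImplicit false
set_option linter.unusedSectionVars false

universe u

namespace Cfsg.Agent.H39.SmallDeg

open scoped commutatorElement IsMulCommutative

variable {p : ℕ} [hp : Fact p.Prime]

/-- The quotient of a perfect group by its centre has trivial centre. -/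
theorem center_quotient_eq_bot {L : Type*} [Group L] (hperf : commutator L = ⊤) :
    Subgroup.center (L ⧸ Subgroup.center L) = ⊥ := by
  refine (Subgroup.eq_bot_iff_forall _).2 fun q hq => ?_
  obtain ⟨x, rfl⟩ := QuotientGroup.mk_surjective q
  rw [QuotientGroup.eq_one_iff]
  have hmem : ∀ k : L, ⁅x, k⁆ ∈ Subgroup.center L := fun k => by
    rw [← QuotientGroup.eq_one_iff]
    show (QuotientGroup.mk' (Subgroup.center L)) ⁅x, k⁆ = 1
    rw [map_commutatorElement, commutatorElement_eq_one_iff_mul_comm]
    exact (Subgroup.mem_center_iff.1 hq _).symm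
  let f : L →* Subgroup.center L :=
    { toFun := fun k => ⟨⁅x, k⁆, hmem k⟩
      map_one' := Subtype.ext (commutatorElement_one_right x)
      map_mul' := fun a b => Subtype.ext (by
        show ⁅x, a * b⁆ = ⁅x, a⁆ * ⁅x, b⁆
        have h := Subgroup.mem_center_iff.1 (hmem b) a
        calc ⁅x, a * b⁆ = ⁅x, a⁆ * (a * ⁅x, b⁆ * a⁻¹) := by simp only [commutatorElement_def]; group
          _ = _ := by rw [h, mul_inv_cancel_right]) }
  have hker : commutator L ≤ f.ker := Abelianization.commutator_subset_ker f
  rw [Subgroup.mem_center_iff]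
  intro k
  have h : f k = 1 := MonoidHom.mem_ker.1 (hker (hperf ▸ Subgroup.mem_top k))
  exact (commutatorElement_eq_one_iff_mul_comm.1 (congrArg Subtype.val h)).symm

/-- A central element of prime order, in a perfect group, does not lie in an abelian Sylow
subgroup. -/
theorem not_commutative_sylow {L : Type*} [Group L] [Finite L] (hperf : commutator L = ⊤) {r : ℕ}
    [Fact r.Prime] (R : Sylow r L) (hab : ∀ a b : (R : Subgroup L), a * b = b * a) {c : L}
    (hc : c ∈ Subgroup.center L) (hord : orderOf c = r) : False := by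
  haveI : IsMulCommutative (R : Subgroup L) := ⟨⟨hab⟩⟩
  have hpow : ∀ (k : ℕ) (g₀ : L), g₀⁻¹ * c ^ k * g₀ ∈ (R : Subgroup L) →
      g₀⁻¹ * c ^ k * g₀ = c ^ k := fun k g₀ _ => by
    rw [mul_assoc, ← Subgroup.mem_center_iff.1 (Subgroup.pow_mem _ hc k) g₀, inv_mul_cancel_left]
  have hker := Abelianization.commutator_subset_ker
    (MonoidHom.transfer (MonoidHom.id (R : Subgroup L)))
  have h := MonoidHom.mem_ker.1 (hker (hperf ▸ Subgroup.mem_top c))
  rw [MonoidHom.transfer_eq_pow _ c hpow] at h
  have h1 : c ^ (R : Subgroup L).index = 1 := congrArg Subtype.val h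
  have hd := orderOf_dvd_of_pow_eq_one h1
  rw [hord] at hd
  exact R.not_dvd_index hd

variable {G : Type u} [Group G] [Finite G] {z : G} {χ : Cfsg.IrrCharacter G}

/-- The structure theorem. -/
theorem Hyp.structure_iso (H : Hyp p z χ) :
    ∃ (a : ℕ) (F : Type) (_ : Field F) (_ : Fintype F), p = 2 ^ a + 1 ∧ Fintype.card F = 2 ^ a ∧
      Nonempty (G ≃* Matrix.SpecialLinearGroup (Fin 2) F × Subgroup.center G) := by
  classical
  set L := commutator G with hL
  obtain ⟨w, ψ, -, -, H'⟩ := H.derived
  obtain ⟨hcen, hodd⟩ := H.center_derived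
  have hperf := H.derived_perfect
  let _ : Fintype L := Fintype.ofFinite L
  obtain ⟨⟨a, ha⟩, hcount⟩ := H'.count hodd
  have h7 := H'.seven_le
  set Q := L ⧸ Subgroup.center L with hQ
  let π : L →* Q := QuotientGroup.mk' _
  have hπ : Function.Surjective π := QuotientGroup.mk'_surjective _
  have hQcard : Nat.card Q = p * (p - 1) * (p - 2) := by
    refine Nat.eq_of_mul_eq_mul_right (Nat.card_pos (α := Subgroup.center L)) ?_
    rw [← Subgroup.card_eq_card_quotient_mul_card_subgroup, hcount]
    ring
  have hQperf : commutator Q = ⊤ := by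
    have h := Subgroup.map_commutator ⊤ ⊤ π
    rw [← commutator_def, hperf, Subgroup.map_top_of_surjective π hπ] at h
    rw [commutator_def, ← h]
  have hpQ : p ∣ Nat.card Q := by rw [hQcard, mul_assoc]; exact dvd_mul_right p _
  have hbig : Nat.card Q < p ^ 3 := by
    rw [hQcard]
    obtain ⟨e, rfl⟩ : ∃ e, p = e + 2 := ⟨p - 2, by omega⟩
    rw [show e + 2 - 1 = e + 1 by omega, Nat.add_sub_cancel]
    nlinarith
  have hsq : ¬ p ^ 2 ∣ Nat.card Q := fun h => H'.sq (by
    rw [hcount, ← hQcard]
    exact Dvd.dvd.mul_left h _)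
  have hpZ : ¬ p ∣ Nat.card (Subgroup.center L) := fun h => H'.sq (by
    rw [hcount, pow_two, mul_assoc p]
    exact mul_dvd_mul h (dvd_mul_right p _))
  have hwnot : π w ≠ 1 := fun h => H'.z_not_central ((QuotientGroup.eq_one_iff w).1 h)
  have hπw : orderOf (π w) = p := by
    refine orderOf_eq_prime ?_ hwnot
    rw [← map_pow, ← H'.ord, pow_orderOf_eq_one, map_one]
  obtain ⟨P, hP⟩ := H31.FewSylow.sylow_eq_zpowers hsq hπw
  have hPn : ¬ (P : Subgroup Q).Normal := by
    intro hn
    rw [hP] at hn
    refine H'.notN ⟨fun x hx g => ?_⟩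
    obtain ⟨i, rfl⟩ := hx
    have h1 := hn.conj_mem _ (Subgroup.mem_zpowers (π w)) (π g)
    obtain ⟨j, hj⟩ := h1
    have hc : (w ^ j)⁻¹ * (g * w * g⁻¹) ∈ Subgroup.center L := by
      refine (QuotientGroup.eq_one_iff _).1 ?_
      show π _ = 1
      simp only [map_mul, map_inv, map_zpow] at hj ⊢
      rw [← hj, inv_mul_cancel]
    set c := (w ^ j)⁻¹ * (g * w * g⁻¹) with hcd
    have hwc : Commute (w ^ j) c := Subgroup.mem_center_iff.1 hc _
    have hcp : c ^ p = 1 := by
      have e : (w ^ j * c) ^ p = 1 := by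
        rw [hcd, mul_inv_cancel_left, conj_pow, ← H'.ord, pow_orderOf_eq_one, mul_one,
          mul_inv_cancel]
      rw [hwc.mul_pow, ← zpow_natCast (w ^ j), ← zpow_mul, mul_comm, zpow_mul, zpow_natCast,
        ← H'.ord, pow_orderOf_eq_one, one_zpow, one_mul, H'.ord] at e
      exact e
    have hc1 : c = 1 := by
      by_contra h
      refine hpZ ?_
      rw [← orderOf_eq_prime (p := p) (x := (⟨c, hc⟩ : Subgroup.center L)) (Subtype.ext hcp)
        (fun e => h (congrArg Subtype.val e))]
      exact orderOf_dvd_natCard _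
    rw [hcd, inv_mul_eq_one] at hc1
    show g * w ^ i * g⁻¹ ∈ Subgroup.zpowers w
    rw [← conj_zpow, ← hc1]
    exact Subgroup.zpow_mem _ (Subgroup.zpow_mem_zpowers w j) i
  have h2 : ∀ N : Subgroup Q, N.Normal → Nat.card N ≠ 2 := by
    intro N hN hcard
    haveI : Fact (Nat.Prime 2) := ⟨Nat.prime_two⟩
    obtain ⟨t, ht⟩ := exists_prime_orderOf_dvd_card' (G := N) 2 (by rw [hcard])
    have hne : t ≠ 1 := fun e => by rw [e, orderOf_one] at ht; exact absurd ht (by norm_num)
    have hall : ∀ x : N, x = 1 ∨ x = t := by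
      intro x
      obtain ⟨a, b, hab, huniv⟩ := Nat.card_eq_two_iff.1 hcard
      have hm : ∀ y : N, y = a ∨ y = b := fun y => by
        have : y ∈ ({a, b} : Set N) := huniv ▸ Set.mem_univ y
        simpa using this
      rcases hm x with rfl | rfl <;> rcases hm 1 with h1 | h1 <;> rcases hm t with h3 | h3 <;>
        first
          | (left; exact h1.symm)
          | (right; exact h3.symm)
          | exact absurd (h3.trans h1.symm) hne
    have hct : (t : Q) ∈ Subgroup.center Q := by
      rw [Subgroup.mem_center_iff]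
      intro g
      rcases hall ⟨g * t * g⁻¹, hN.conj_mem _ t.2 g⟩ with e | e
      · exact absurd (conj_eq_one_iff.1 (congrArg Subtype.val e)) (fun h => hne (Subtype.ext h))
      · exact mul_inv_eq_iff_eq_mul.1 (congrArg Subtype.val e)
    rw [center_quotient_eq_bot hperf, Subgroup.mem_bot] at hct
    exact hne (Subtype.ext hct)
  rcases Cfsg.Agent.S4701.result hQperf p hpQ hbig P hPn h2 with
    ⟨F, _, _, hF, -, ⟨φ⟩⟩ | ⟨m, F, _, _, hF, hpm, -, ⟨φ⟩⟩
  · exfalso
    obtain ⟨c, hc, -, hcard⟩ := H31.FewSylow.psl_bound (F := F) hF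
    rw [← Nat.card_congr φ.toEquiv, hQcard] at hcard
    obtain ⟨e, rfl⟩ : ∃ e, p = e + 2 := ⟨p - 2, by omega⟩
    rw [show e + 2 - 1 = e + 1 by omega, Nat.add_sub_cancel] at hcard
    have h1 : (e + 2) ^ 2 = (e + 1) * (e + 3) + 1 := by ring
    rw [h1, Nat.add_sub_cancel] at hcard
    have h3 : c * e = e + 3 := Nat.eq_of_mul_eq_mul_left
      (show 0 < (e + 2) * (e + 1) by positivity) (by linear_combination hcard)
    rcases hc with rfl | rfl <;> omega
  · have hm : 2 ≤ m := by
      by_contra h
      interval_cases m <;> simp at hpm <;> omega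
    haveI hchar : CharP F 2 := by
      refine (CharP.charP_iff_prime_eq_zero Nat.prime_two).2 ?_
      have h := FiniteField.cast_card_eq_zero F
      rw [hF, Nat.cast_pow] at h
      exact eq_zero_of_pow_eq_zero h
    have hZ : Subgroup.center L = ⊥ := by
      by_contra hne
      have h1 : Nat.card (Subgroup.center L) ≠ 1 := fun h => hne (Subgroup.card_eq_one.1 h)
      obtain ⟨r, hr, hrd⟩ := Nat.exists_prime_and_dvd h1
      haveI : Fact r.Prime := ⟨hr⟩
      haveI : Fact (Nat.Prime 2) := ⟨Nat.prime_two⟩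
      have hr2 : r ≠ 2 := fun e => Nat.not_even_iff_odd.2 hodd (even_iff_two_dvd.2 (e ▸ hrd))
      obtain ⟨c, hc⟩ := exists_prime_orderOf_dvd_card' (G := Subgroup.center L) r hrd
      have hc' : orderOf (c : L) = r := (Subgroup.orderOf_coe c).trans hc
      have hcr : IsPGroup r (Subgroup.zpowers (c : L)) :=
        IsPGroup.of_card (n := 1) (by rw [Nat.card_zpowers, hc', pow_one])
      obtain ⟨R, hR⟩ := hcr.exists_le_sylow
      let f : (R : Subgroup L) →* Matrix.SpecialLinearGroup (Fin 2) F :=
        φ.toMonoidHom.comp (π.comp (R : Subgroup L).subtype)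
      haveI : IsCyclic f.range :=
        H1.isCyclic_of_isPGroup_SL2 2 r hr2 hr2 f.range (R.isPGroup'.of_surjective f.rangeRestrict
          f.rangeRestrict_surjective)
      refine not_commutative_sylow hperf R (commutative_of_cyclic_center_quotient f.rangeRestrict
        fun x hx => ?_) c.2 hc'
      rw [MonoidHom.ker_rangeRestrict] at hx
      have hx' : π (x : L) = 1 := φ.injective ((MonoidHom.mem_ker.1 hx).trans (map_one φ).symm)
      have hxc : (x : L) ∈ Subgroup.center L := (QuotientGroup.eq_one_iff _).1 hx'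
      rw [Subgroup.mem_center_iff]
      exact fun y => Subtype.ext (Subgroup.mem_center_iff.1 hxc y)
    refine ⟨m, F, inferInstance, inferInstance, hpm, hF, ⟨?_⟩⟩
    let e1 : L ≃* Q :=
      (QuotientGroup.quotientBot (G := L)).symm.trans (QuotientGroup.quotientMulEquivOfEq hZ.symm)
    have hcomm : ∀ (k : L) (c : Subgroup.center G), Commute (k : G) (c : G) := fun k c =>
      Subgroup.mem_center_iff.1 c.2 k
    let μ : L × Subgroup.center G →* G :=
      L.subtype.noncommCoprod (Subgroup.center G).subtype hcomm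
    have hμ : Function.Bijective μ := by
      constructor
      · rw [injective_iff_map_eq_one]
        rintro ⟨k, c⟩ h
        have h' : (k : G) * (c : G) = 1 := h
        have hkc : (k : G) ∈ Subgroup.center G := by
          rw [mul_eq_one_iff_eq_inv.1 h']
          exact Subgroup.inv_mem _ c.2
        have hk : k ∈ Subgroup.center L := by
          rw [Subgroup.mem_center_iff]
          exact fun y => Subtype.ext (Subgroup.mem_center_iff.1 hkc y)
        rw [hZ, Subgroup.mem_bot] at hk
        subst hk
        rw [Subgroup.coe_one, one_mul] at h'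
        exact Prod.ext rfl (Subtype.ext h')
      · intro g
        obtain ⟨k, hk, c, hc, rfl⟩ := H.derived_cover g
        exact ⟨(⟨k, hk⟩, ⟨c, hc⟩), rfl⟩
    exact (MulEquiv.ofBijective μ hμ).symm.trans
      (MulEquiv.prodCongr (e1.trans φ) (MulEquiv.refl _))

end Cfsg.Agent.H39.SmallDeg
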